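import Cfsg.Agent.Lib.SchurMult.Sylow
import Cfsg.Agent.Lib.Classical.Order

/-!
Perfect central extensions of PSL(3,4) with elementary abelian 2-kernel have kernel of order at
most 4: the lifts of the two maximal elementary abelian subgroups of a Sylow 2-subgroup are
abelian, so the derived subgroup of the Sylow subgroup is generated by four involutions.
-/

set_option autoImplicit false

namespace Cfsg.Agent.Lib.L34

open Subgroup

section lifts

variable {D G : Type*} [Group D] [Group G] (π : D →* G)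

theorem comm_of_conj (hπ : Function.Surjective π) (hc : π.ker ≤ center D)
    (h2 : ∀ a ∈ π.ker, a * a = 1) {t : G} (ht : t * t = 1) (E : Set G)
    (hmul : ∀ u ∈ E, ∀ v ∈ E, u * v ∈ E) (hsq : ∀ u ∈ E, u * u = 1)
    (hbig : ∀ v ∈ E, ∀ w ∈ E, ∃ z ∈ E, z ≠ 1 ∧ z ≠ v ∧ z ≠ w ∧ z ≠ v * w)
    (hconj : ∀ u ∈ E, u ≠ 1 → ∃ h : G, h * u = t * h)
    {x y : D} (hx : π x ∈ E) (hy : π y ∈ E) : x * y = y * x := by
  obtain ⟨t', rfl⟩ := hπ t
  set c := t' * t' with hcdef
  have hck : c ∈ π.ker := by rw [MonoidHom.mem_ker, map_mul, ht]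
  have hcc : ∀ g, c * g = g * c := fun g => (mem_center_iff.1 (hc hck) g).symm
  have sq : ∀ g : D, π g ∈ E → π g ≠ 1 → g * g = c := by
    intro g hg hg1
    obtain ⟨h, hh⟩ := hconj _ hg hg1
    obtain ⟨h', rfl⟩ := hπ h
    have ha : t'⁻¹ * (h' * g * h'⁻¹) ∈ π.ker := by
      rw [MonoidHom.mem_ker]
      simp [hh]
    obtain ⟨a, hak, hae⟩ : ∃ a ∈ π.ker, h' * g * h'⁻¹ = t' * a := ⟨_, ha, by group⟩
    have hg2 : g * g ∈ π.ker := by rw [MonoidHom.mem_ker, map_mul, hsq _ hg]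
    have hac := mem_center_iff.1 (hc hak)
    calc g * g = h' * (g * g) * h'⁻¹ := by
          rw [mem_center_iff.1 (hc hg2) h', mul_inv_cancel_right]
      _ = (h' * g * h'⁻¹) * (h' * g * h'⁻¹) := by group
      _ = t' * (a * t') * a := by rw [hae]; group
      _ = (t' * t') * (a * a) := by rw [← hac t']; group
      _ = c := by rw [h2 a hak, mul_one]
  have pair : ∀ a b : D, π a ∈ E → π b ∈ E → π a ≠ 1 → π b ≠ 1 → π a * π b ≠ 1 →
      a * b = c * (b * a) := by
    intro a b ha hb ha1 hb1 hab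
    have e := sq (a * b) (by rw [map_mul]; exact hmul _ ha _ hb) (by rwa [map_mul])
    calc a * b = (a * b) * (a * b) * (b⁻¹ * a⁻¹) := by group
      _ = c * (b⁻¹ * a⁻¹) := by rw [e]
      _ = c * ((b⁻¹ * b⁻¹) * b * (a⁻¹ * a⁻¹) * a) := by group
      _ = c * (c⁻¹ * b * c⁻¹ * a) := by
          rw [← mul_inv_rev, sq b hb hb1, ← mul_inv_rev, sq a ha ha1]
      _ = c * ((c⁻¹ * c⁻¹) * (b * a)) := by
          have hci : ∀ g, c⁻¹ * g = g * c⁻¹ := fun g =>
            (mem_center_iff.1 (hc (inv_mem hck)) g).symm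
          rw [show c⁻¹ * b * c⁻¹ * a = c⁻¹ * (b * c⁻¹) * a by group, ← hci b]; group
      _ = c * (b * a) := by rw [← mul_inv_rev, h2 c hck, inv_one, one_mul]
  by_cases hx1 : π x = 1
  · exact (mem_center_iff.1 (hc hx1) y).symm
  by_cases hy1 : π y = 1
  · exact mem_center_iff.1 (hc hy1) x
  by_cases hxy : π x = π y
  · have hk : x⁻¹ * y ∈ π.ker := by rw [MonoidHom.mem_ker]; simp [hxy]
    have := mem_center_iff.1 (hc hk) x
    calc x * y = x * (x * (x⁻¹ * y)) := by group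
      _ = x * ((x⁻¹ * y) * x) := by rw [← this]
      _ = y * x := by group
  obtain ⟨z', hz', z1, zv, zw, zvw⟩ := hbig _ hx _ hy
  obtain ⟨z, rfl⟩ := hπ z'
  have inv_eq : ∀ u ∈ E, u⁻¹ = u := fun u hu => inv_eq_of_mul_eq_one_right (hsq u hu)
  have hne : ∀ u ∈ E, ∀ v ∈ E, u ≠ v → u * v ≠ 1 := fun u hu v hv huv e =>
    huv (by rw [← inv_eq v hv]; exact eq_inv_of_mul_eq_one_left e)
  have hyz : π (y * z) ∈ E := by rw [map_mul]; exact hmul _ hy _ hz'
  have hxyz : π x ≠ π y * π z := fun e => zvw (by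
    have hcomm : π x * π y = π y * π x := by
      rw [← inv_eq _ (hmul _ hx _ hy), mul_inv_rev, inv_eq _ hx, inv_eq _ hy]
    rw [hcomm, e, ← mul_assoc, hsq _ hy, one_mul])
  have e1 := pair x y hx hy hx1 hy1 (hne _ hx _ hy hxy)
  have e2 := pair x z hx hz' hx1 z1 (hne _ hx _ hz' (Ne.symm zv))
  have e3 := pair x (y * z) hx hyz hx1 (by rw [map_mul]; exact hne _ hy _ hz' (Ne.symm zw))
    (by rw [map_mul]; exact hne _ hx _ (hmul _ hy _ hz') hxyz)
  have c1 : c = 1 := by
    have e4 : c * c * (y * (z * x)) = c * (y * (z * x)) := by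
      calc c * c * (y * (z * x)) = c * (c * y) * (z * x) := by group
        _ = c * (y * c) * (z * x) := by rw [hcc y]
        _ = c * y * (c * (z * x)) := by group
        _ = c * y * (x * z) := by rw [e2]
        _ = c * (y * x) * z := by group
        _ = x * y * z := by rw [← e1]
        _ = x * (y * z) := by group
        _ = c * (y * z * x) := e3
        _ = c * (y * (z * x)) := by group
    exact mul_left_cancel (a := c) (by simpa using mul_right_cancel e4)
  rw [e1, c1, one_mul]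

theorem card_closure_four {H : Type*} [Group H] [Finite H] (k : Fin 4 → H)
    (hk : ∀ i, k i * k i = 1) (hc : ∀ i j, k i * k j = k j * k i) :
    Nat.card (closure (Set.range k)) ≤ 16 := by
  classical
  haveI : IsMulCommutative (closure (Set.range k)) :=
    Subgroup.isMulCommutative_closure (by rintro _ ⟨i, rfl⟩ _ ⟨j, rfl⟩; exact hc i j)
  set C := closure (Set.range k)
  letI : CommGroup C := { (inferInstance : Group C) with mul_comm := fun a b => mul_comm' a b }
  let k' : Fin 4 → C := fun i => ⟨k i, subset_closure ⟨i, rfl⟩⟩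
  have hk' : ∀ i, k' i ^ 2 = 1 := fun i => Subtype.ext (by rw [pow_two]; exact hk i)
  let φ : (Fin 4 → Multiplicative (ZMod 2)) →* C :=
    { toFun := fun f => ∏ i, k' i ^ (Multiplicative.toAdd (f i)).val
      map_one' := by simp
      map_mul' := fun f g => by
        rw [← Finset.prod_mul_distrib]
        refine Finset.prod_congr rfl fun i _ => ?_
        rw [Pi.mul_apply, toAdd_mul, ZMod.val_add, ← pow_eq_pow_mod _ (hk' i), pow_add] }
  have hsurj : Function.Surjective φ := by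
    intro x
    have hle : C ≤ φ.range.map C.subtype := by
      rw [closure_le]
      rintro _ ⟨i, rfl⟩
      refine ⟨k' i, ⟨Pi.mulSingle i (Multiplicative.ofAdd 1), ?_⟩, rfl⟩
      show (∏ j : Fin 4, k' j ^ (Multiplicative.toAdd ((Pi.mulSingle i (Multiplicative.ofAdd 1) :
        Fin 4 → Multiplicative (ZMod 2)) j)).val) = k' i
      rw [Finset.prod_eq_single_of_mem i (Finset.mem_univ i) (fun j _ hj => by
        rw [Pi.mulSingle_eq_of_ne hj]; simp)]
      simp [ZMod.val_one]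
    obtain ⟨y, ⟨f, hf⟩, hy⟩ := hle x.2
    exact ⟨f, hf.trans (Subtype.ext hy)⟩
  refine (Nat.card_le_card_of_surjective φ hsurj).trans ?_
  simp

end lifts

section L34

open Matrix
open scoped commutatorElement

variable {F : Type*} [Field F] [Fintype F]

local notation "SL3" => SpecialLinearGroup (Fin 3) F
local notation "P3" => ProjectiveSpecialLinearGroup (Fin 3) F

/-- Upper unitriangular matrices. -/
def M (a b c : F) : SL3 :=
  ⟨!![1, a, b; 0, 1, c; 0, 0, 1], by simp [Matrix.det_fin_three]⟩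

omit [Fintype F] in
theorem M_mul (a b c a' b' c' : F) :
    M a b c * M a' b' c' = M (a + a') (b + b' + a * c') (c + c') := by
  apply Subtype.ext
  show (!![1, a, b; 0, 1, c; 0, 0, 1] : Matrix (Fin 3) (Fin 3) F) * !![1, a', b'; 0, 1, c'; 0, 0, 1] = _
  ext i j
  fin_cases i <;> fin_cases j <;> simp [M, Matrix.mul_apply, Fin.sum_univ_three] <;> ring

omit [Fintype F] in
theorem M_zero : (M 0 0 0 : SL3) = 1 := by
  apply Subtype.ext
  ext i j
  fin_cases i <;> fin_cases j <;> simp [M]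

omit [Fintype F] in
theorem M_inj {a b c a' b' c' : F} (h : (M a b c : SL3) = M a' b' c') :
    a = a' ∧ b = b' ∧ c = c' := by
  have h' : ∀ i j, (M a b c : SL3).1 i j = (M a' b' c' : SL3).1 i j := fun i j => by rw [h]
  exact ⟨by simpa [M] using h' 0 1, by simpa [M] using h' 0 2, by simpa [M] using h' 1 2⟩

omit [Fintype F] in
theorem M_center {a b c : F} (h : (M a b c : SL3) ∈ center SL3) : a = 0 ∧ b = 0 ∧ c = 0 := by
  obtain ⟨r, -, hr⟩ := Matrix.SpecialLinearGroup.mem_center_iff.1 h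
  have h' : ∀ i j, Matrix.scalar (Fin 3) r i j = (M a b c : SL3).1 i j := fun i j => by rw [hr]
  exact ⟨by simpa [M] using (h' 0 1).symm, by simpa [M] using (h' 0 2).symm,
    by simpa [M] using (h' 1 2).symm⟩

omit [Fintype F] in
theorem conj_row (a b : F) (h : a ≠ 0 ∨ b ≠ 0) :
    ∃ g : SL3, g * M a b 0 = M 0 1 0 * g := by
  obtain ⟨p, q, hpq⟩ : ∃ p q : F, p * b - q * a = 1 := by
    rcases h with h | h
    · exact ⟨0, -a⁻¹, by field_simp; ring⟩
    · exact ⟨b⁻¹, 0, by field_simp; ring⟩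
  refine ⟨⟨!![1, 0, 0; 0, p, q; 0, a, b], by simp [Matrix.det_fin_three]; linear_combination hpq⟩,
    Subtype.ext ?_⟩
  show (!![1, 0, 0; 0, p, q; 0, a, b] : Matrix (Fin 3) (Fin 3) F) * !![1, a, b; 0, 1, 0; 0, 0, 1] =
    !![1, 0, 1; 0, 1, 0; 0, 0, 1] * !![1, 0, 0; 0, p, q; 0, a, b]
  ext i j
  fin_cases i <;> fin_cases j <;> simp [Matrix.mul_apply, Fin.sum_univ_three]

omit [Fintype F] in
theorem conj_col (b c : F) (h : b ≠ 0 ∨ c ≠ 0) :
    ∃ g : SL3, g * M 0 b c = M 0 1 0 * g := by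
  obtain ⟨p, q, hpq⟩ : ∃ p q : F, p * b + q * c = 1 := by
    rcases h with h | h
    · exact ⟨b⁻¹, 0, by field_simp; ring⟩
    · exact ⟨0, c⁻¹, by field_simp; ring⟩
  refine ⟨⟨!![p, q, 0; -c, b, 0; 0, 0, 1], by simp [Matrix.det_fin_three]; linear_combination hpq⟩,
    Subtype.ext ?_⟩
  show (!![p, q, 0; -c, b, 0; 0, 0, 1] : Matrix (Fin 3) (Fin 3) F) * !![1, 0, b; 0, 1, c; 0, 0, 1] =
    !![1, 0, 1; 0, 1, 0; 0, 0, 1] * !![p, q, 0; -c, b, 0; 0, 0, 1]
  ext i j
  fin_cases i <;> fin_cases j <;> simp [Matrix.mul_apply, Fin.sum_univ_three] <;>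
    first | linear_combination hpq | linear_combination -hpq | ring

/-- The image of `M` in `PSL(3,F)`. -/
def m (a b c : F) : P3 := QuotientGroup.mk' _ (M a b c)

omit [Fintype F] in
theorem m_mul (a b c a' b' c' : F) :
    m a b c * m a' b' c' = m (a + a') (b + b' + a * c') (c + c') := by
  rw [m, m, m, ← map_mul, M_mul]

omit [Fintype F] in
theorem m_eq_one {a b c : F} : (m a b c : P3) = 1 ↔ a = 0 ∧ b = 0 ∧ c = 0 := by
  refine ⟨fun h => M_center ((QuotientGroup.eq_one_iff _).1 h), ?_⟩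
  rintro ⟨rfl, rfl, rfl⟩
  rw [m, M_zero, map_one]

theorem char2 (hF : Fintype.card F = 4) : CharP F 2 :=
  charP_of_card_eq_prime_pow (f := 2) (by rw [hF]; norm_num)

theorem card_SL3 (hF : Fintype.card F = 4) : Nat.card SL3 = 60480 := by
  classical
  have h := Lib.Classical.card_GL_eq_units_mul_card_SL (R := F) (ι := Fin 3)
  rw [Matrix.card_GL_field, hF, Nat.card_units, Nat.card_eq_fintype_card (α := F), hF] at h
  simp [Fin.prod_univ_three] at h
  rw [Nat.card_eq_fintype_card]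
  omega

theorem exists_basis (hF : Fintype.card F = 4) :
    ∃ w : F, ∀ a : F, a = 0 ∨ a = 1 ∨ a = w ∨ a = 1 + w := by
  classical
  haveI := char2 hF
  obtain ⟨w, -, hw⟩ := Finset.exists_mem_notMem_of_card_lt_card (s := ({0, 1} : Finset F))
    (t := Finset.univ)
    (by rw [Finset.card_univ, hF]; exact Finset.card_le_two.trans_lt (by norm_num))
  simp only [Finset.mem_insert, Finset.mem_singleton, not_or] at hw
  refine ⟨w, fun a => ?_⟩
  have hall : ({0, 1, w, 1 + w} : Finset F) = Finset.univ := by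
    apply Finset.eq_univ_of_card
    rw [hF]
    have n1 : (1 + w : F) ≠ 0 := fun e => hw.2 (CharTwo.add_eq_zero.1 e).symm
    have n2 : (1 + w : F) ≠ 1 := fun e => hw.1 (by simpa using e)
    have n3 : (1 + w : F) ≠ w := fun e => (one_ne_zero : (1 : F) ≠ 0) (by simpa using e)
    rw [Finset.card_insert_of_notMem (by simp [Ne.symm hw.1, n1.symm]),
      Finset.card_insert_of_notMem (by simp [Ne.symm hw.2, n2.symm]),
      Finset.card_insert_of_notMem (by simp [n3.symm]), Finset.card_singleton]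
  simpa using Finset.ext_iff.1 hall a

theorem exists_two_avoid (hF : Fintype.card F = 4) (x y z : F × F) :
    ∃ u : F × F, u ≠ 0 ∧ u ≠ x ∧ u ≠ y ∧ u ≠ z := by
  classical
  obtain ⟨u, -, hu⟩ := Finset.exists_mem_notMem_of_card_lt_card
    (s := ({0, x, y, z} : Finset (F × F))) (t := Finset.univ) (by
      rw [Finset.card_univ, Fintype.card_prod, hF]
      exact Finset.card_le_four.trans_lt (by norm_num))
  simp only [Finset.mem_insert, Finset.mem_singleton, not_or] at hu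
  exact ⟨u, hu⟩

omit [Fintype F] in
theorem m_row_inj {u v : F × F} (h : (m u.1 u.2 0 : P3) = m v.1 v.2 0) : u = v := by
  have h1 : (m (u.1 - v.1) (u.2 - v.2) 0 : P3) * m v.1 v.2 0 = m u.1 u.2 0 := by
    rw [m_mul]; simp
  rw [h, mul_eq_right, m_eq_one] at h1
  exact Prod.ext (sub_eq_zero.1 h1.1) (sub_eq_zero.1 h1.2.1)

omit [Fintype F] in
theorem m_col_inj {u v : F × F} (h : (m 0 u.1 u.2 : P3) = m 0 v.1 v.2) : u = v := by
  have h1 : (m 0 (u.1 - v.1) (u.2 - v.2) : P3) * m 0 v.1 v.2 = m 0 u.1 u.2 := by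
    rw [m_mul]; simp
  rw [h, mul_eq_right, m_eq_one] at h1
  exact Prod.ext (sub_eq_zero.1 h1.2.1) (sub_eq_zero.1 h1.2.2)

theorem ker_card_le {D : Type*} [Group D] [Finite D] (π : D →* P3) (hπ : Function.Surjective π)
    (hF : Fintype.card F = 4) (hc : π.ker ≤ center D) (h2 : ∀ a ∈ π.ker, a * a = 1)
    (hperf : π.ker ≤ commutator D) : Nat.card π.ker ≤ 4 := by
  classical
  haveI := char2 hF
  haveI : Fact (Nat.Prime 2) := ⟨Nat.prime_two⟩
  have two0 : ∀ a : F, a + a = 0 := CharTwo.add_self_eq_zero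
  have ht : (m 0 1 0 : P3) * m 0 1 0 = 1 := by
    rw [m_mul, m_eq_one]; simp [two0]
  -- the two elementary abelian subgroups of order 16
  have row : ∀ x y : D, (∃ u : F × F, π x = m u.1 u.2 0) → (∃ u : F × F, π y = m u.1 u.2 0) →
      x * y = y * x := by
    intro x y hx hy
    refine comm_of_conj π hπ hc h2 ht {g | ∃ u : F × F, g = m u.1 u.2 0} ?_ ?_ ?_ ?_ hx hy
    · rintro _ ⟨u, rfl⟩ _ ⟨v, rfl⟩
      exact ⟨(u.1 + v.1, u.2 + v.2), by rw [m_mul]; simp⟩
    · rintro _ ⟨u, rfl⟩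
      rw [m_mul, m_eq_one]; simp [two0]
    · rintro _ ⟨u, rfl⟩ _ ⟨v, rfl⟩
      obtain ⟨z, h0, h1, h2, h3⟩ := exists_two_avoid hF u v (u + v)
      refine ⟨_, ⟨z, rfl⟩, fun e => h0 ?_, fun e => h1 (m_row_inj e), fun e => h2 (m_row_inj e),
        fun e => h3 (m_row_inj ?_)⟩
      · obtain ⟨a, b, -⟩ := m_eq_one.1 e; exact Prod.ext a b
      · rw [e, m_mul]; simp
    · rintro _ ⟨u, rfl⟩ hne
      obtain ⟨g, hg⟩ := conj_row u.1 u.2 (by
        by_contra hh; push_neg at hh; exact hne (m_eq_one.2 ⟨hh.1, hh.2, rfl⟩))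
      exact ⟨QuotientGroup.mk' _ g, by rw [m, m, ← map_mul, hg, map_mul]⟩
  have col : ∀ x y : D, (∃ u : F × F, π x = m 0 u.1 u.2) → (∃ u : F × F, π y = m 0 u.1 u.2) →
      x * y = y * x := by
    intro x y hx hy
    refine comm_of_conj π hπ hc h2 ht {g | ∃ u : F × F, g = m 0 u.1 u.2} ?_ ?_ ?_ ?_ hx hy
    · rintro _ ⟨u, rfl⟩ _ ⟨v, rfl⟩
      exact ⟨(u.1 + v.1, u.2 + v.2), by rw [m_mul]; simp⟩
    · rintro _ ⟨u, rfl⟩
      rw [m_mul, m_eq_one]; simp [two0]
    · rintro _ ⟨u, rfl⟩ _ ⟨v, rfl⟩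
      obtain ⟨z, h0, h1, h2, h3⟩ := exists_two_avoid hF u v (u + v)
      refine ⟨_, ⟨z, rfl⟩, fun e => h0 ?_, fun e => h1 (m_col_inj e), fun e => h2 (m_col_inj e),
        fun e => h3 (m_col_inj ?_)⟩
      · obtain ⟨-, a, b⟩ := m_eq_one.1 e; exact Prod.ext a b
      · rw [e, m_mul]; simp
    · rintro _ ⟨u, rfl⟩ hne
      obtain ⟨g, hg⟩ := conj_col u.1 u.2 (by
        by_contra hh; push_neg at hh; exact hne (m_eq_one.2 ⟨rfl, hh.1, hh.2⟩))
      exact ⟨QuotientGroup.mk' _ g, by rw [m, m, ← map_mul, hg, map_mul]⟩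
  -- the unitriangular group
  let U : Subgroup SL3 :=
    { carrier := Set.range fun u : F × F × F => M u.1 u.2.1 u.2.2
      one_mem' := ⟨(0, 0, 0), M_zero⟩
      mul_mem' := by rintro _ _ ⟨u, rfl⟩ ⟨v, rfl⟩; exact ⟨(_, _, _), (M_mul ..).symm⟩
      inv_mem' := by
        rintro _ ⟨⟨a, b, c⟩, rfl⟩
        refine ⟨(-a, a * c - b, -c), eq_inv_of_mul_eq_one_left ?_⟩
        rw [M_mul, ← M_zero]; congr 1 <;> ring }
  have hUcard : Nat.card U = 4 ^ 3 := by
    have e : Function.Injective fun u : F × F × F => (M u.1 u.2.1 u.2.2 : SL3) := fun u v h => by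
      obtain ⟨h1, h2, h3⟩ := M_inj h; exact Prod.ext h1 (Prod.ext h2 h3)
    show Nat.card ↑(Set.range fun u : F × F × F => (M u.1 u.2.1 u.2.2 : SL3)) = _
    rw [Nat.card_range_of_injective e, Nat.card_prod, Nat.card_prod, Nat.card_eq_fintype_card, hF]
    norm_num
  set UG : Subgroup P3 := U.map (QuotientGroup.mk' _) with hUG
  have hUGmem : ∀ g, g ∈ UG ↔ ∃ a b c, g = m a b c := fun g => by
    constructor
    · rintro ⟨_, ⟨u, rfl⟩, rfl⟩; exact ⟨_, _, _, rfl⟩
    · rintro ⟨a, b, c, rfl⟩; exact ⟨_, ⟨(a, b, c), rfl⟩, rfl⟩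
  have hodd : ¬ 2 ∣ UG.index := fun hd => by
    have h1 := hd.trans (U.index_map_dvd (QuotientGroup.mk'_surjective _))
    have h3 := U.card_mul_index
    rw [hUcard, card_SL3 hF] at h3
    omega
  have hker2 : IsPGroup 2 π.ker := fun a => ⟨1, by
    rw [pow_one, pow_two]; exact Subtype.ext (h2 a.1 a.2)⟩
  have hUG2 : IsPGroup 2 UG := (IsPGroup.of_card (n := 6) (by rw [hUcard]; norm_num)).map _
  have hS : IsPGroup 2 (UG.comap π) := hUG2.comap_of_ker_isPGroup π hker2
  have hSindex : ¬ 2 ∣ (UG.comap π).index := by rwa [index_comap_of_surjective _ hπ]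
  set P : Sylow 2 D := hS.toSylow hSindex
  obtain ⟨w, hw⟩ := exists_basis hF
  choose lift hlift using hπ
  let k : Fin 4 → D := ![⁅lift (m 1 0 0), lift (m 0 0 1)⁆, ⁅lift (m w 0 0), lift (m 0 0 1)⁆,
    ⁅lift (m 1 0 0), lift (m 0 0 w)⁆, ⁅lift (m w 0 0), lift (m 0 0 w)⁆]
  -- central elements of the Sylow subgroup
  let W : Set D := {g | ∃ b, π g = m 0 b 0}
  have hminv : ∀ a b c : F, (m a b c : P3)⁻¹ = m (-a) (a * c - b) (-c) := fun a b c => by
    rw [inv_eq_iff_mul_eq_one, m_mul, m_eq_one]; refine ⟨?_, ?_, ?_⟩ <;> ring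
  have kimg : ∀ a c : F, π ⁅lift (m a 0 0), lift (m 0 0 c)⁆ = m 0 (a * c) 0 := fun a c => by
    rw [map_commutatorElement, hlift, hlift, commutatorElement_def, hminv, hminv, m_mul, m_mul,
      m_mul]
    congr 1 <;> ring
  have hkW : ∀ i, k i ∈ W := fun i => by
    fin_cases i <;> exact ⟨_, kimg _ _⟩
  have Wcomm : ∀ g ∈ W, ∀ x, (∃ u : F × F, π x = m u.1 u.2 0) ∨ (∃ u : F × F, π x = m 0 u.1 u.2) →
      g * x = x * g := by
    rintro g ⟨b, hb⟩ x (hx | hx)
    · exact row g x ⟨(0, b), hb⟩ hx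
    · exact col g x ⟨(b, 0), hb⟩ hx
  set K := closure (Set.range k) with hK
  have hcommW : ∀ i j, k i * k j = k j * k i := fun i j => by
    obtain ⟨b, hb⟩ := hkW j
    exact Wcomm _ (hkW i) _ (Or.inl ⟨(0, b), hb⟩)
  have sqk : ∀ a c : F, ⁅lift (m a 0 0), lift (m 0 0 c)⁆ * ⁅lift (m a 0 0), lift (m 0 0 c)⁆ = 1 := by
    intro a c
    set x := lift (m a 0 0)
    set y := lift (m 0 0 c)
    have e : ⁅x, y⁆ * x = x * ⁅x, y⁆ := Wcomm _ ⟨_, kimg a c⟩ x (Or.inl ⟨(a, 0), hlift _⟩)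
    have hx2 : x * x ∈ π.ker := by
      rw [MonoidHom.mem_ker, map_mul, hlift, m_mul, m_eq_one]; simp [two0]
    calc ⁅x, y⁆ * ⁅x, y⁆ = x * ⁅x, y⁆ * x⁻¹ * ⁅x, y⁆ := by rw [← e, mul_inv_cancel_right]
      _ = ⁅x * x, y⁆ := by rw [commutatorElement_def, commutatorElement_def]; group
      _ = 1 := commutatorElement_eq_one_iff_mul_comm.2 (mem_center_iff.1 (hc hx2) y).symm
  have hK16 : Nat.card K ≤ 16 := card_closure_four k (fun i => by fin_cases i <;> exact sqk _ _) hcommW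
  -- generators of the Sylow subgroup
  let T : Set D := {lift (m 1 0 0), lift (m w 0 0), lift (m 0 0 1), lift (m 0 0 w)} ∪ W
  have hgen : UG.comap π ≤ closure T := by
    intro g hg
    obtain ⟨a, b, c, habc⟩ := (hUGmem _).1 hg
    have hone : (m 0 0 0 : P3) = 1 := m_eq_one.2 ⟨rfl, rfl, rfl⟩
    have hT : ∀ x ∈ T, π x ∈ (closure T).map π := fun x hx => ⟨x, subset_closure hx, rfl⟩
    have in1 : ∀ a : F, (m a 0 0 : P3) ∈ (closure T).map π := by
      intro a
      rcases hw a with rfl | rfl | rfl | rfl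
      · rw [hone]; exact one_mem _
      · rw [← hlift (m 1 0 0)]; exact hT _ (by simp [T])
      · rw [← hlift (m a 0 0)]; exact hT _ (by simp [T])
      · rw [show (m (1 + w) 0 0 : P3) = m 1 0 0 * m w 0 0 by rw [m_mul]; simp, ← hlift (m 1 0 0),
          ← hlift (m w 0 0)]
        exact mul_mem (hT _ (by simp [T])) (hT _ (by simp [T]))
    have in3 : ∀ a : F, (m 0 0 a : P3) ∈ (closure T).map π := by
      intro a
      rcases hw a with rfl | rfl | rfl | rfl
      · rw [hone]; exact one_mem _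
      · rw [← hlift (m 0 0 1)]; exact hT _ (by simp [T])
      · rw [← hlift (m 0 0 a)]; exact hT _ (by simp [T])
      · rw [show (m 0 0 (1 + w) : P3) = m 0 0 1 * m 0 0 w by rw [m_mul]; simp, ← hlift (m 0 0 1),
          ← hlift (m 0 0 w)]
        exact mul_mem (hT _ (by simp [T])) (hT _ (by simp [T]))
    have in2 : (m 0 b 0 : P3) ∈ (closure T).map π := by
      rw [← hlift (m 0 b 0)]; exact hT _ (Or.inr ⟨b, hlift _⟩)
    obtain ⟨g', hg', he⟩ : π g ∈ (closure T).map π := by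
      rw [habc, show (m a b c : P3) = m 0 0 c * m 0 b 0 * m a 0 0 by rw [m_mul, m_mul]; simp]
      exact mul_mem (mul_mem (in3 c) in2) (in1 a)
    have : g'⁻¹ * g ∈ W := ⟨0, by rw [map_mul, map_inv, he, inv_mul_cancel, hone]⟩
    have := mul_mem hg' (subset_closure (Or.inr this : g'⁻¹ * g ∈ T))
    rwa [mul_inv_cancel_left] at this
  have hTimg : ∀ x ∈ T, (∃ u : F × F, π x = m u.1 u.2 0) ∨ (∃ u : F × F, π x = m 0 u.1 u.2) := by
    rintro x ((rfl | rfl | rfl | rfl) | ⟨b, hb⟩)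
    · exact Or.inl ⟨(1, 0), hlift _⟩
    · exact Or.inl ⟨(w, 0), hlift _⟩
    · exact Or.inr ⟨(0, 1), hlift _⟩
    · exact Or.inr ⟨(0, w), hlift _⟩
    · exact Or.inl ⟨(0, b), hb⟩
  have hKc : ∀ z ∈ K, ∀ x ∈ closure T, z * x = x * z := by
    intro z hz x hx
    have h1 : closure T ≤ centralizer (Set.range k) := by
      rw [closure_le]; intro t ht'
      exact mem_centralizer_iff.2 (by rintro _ ⟨i, rfl⟩; exact Wcomm _ (hkW i) t (hTimg t ht'))
    have h2 : K ≤ centralizer ((closure T : Subgroup D) : Set D) := by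
      rw [hK, closure_le]; rintro _ ⟨i, rfl⟩
      exact mem_centralizer_iff.2 fun t ht' => (mem_centralizer_iff.1 (h1 ht') _ ⟨i, rfl⟩).symm
    exact (mem_centralizer_iff.1 (h2 hz) x hx).symm
  have hcommT : ∀ x ∈ T, ∀ y ∈ T, ⁅x, y⁆ ∈ K := by
    have inK : ∀ i, k i ∈ K := fun i => subset_closure ⟨i, rfl⟩
    have comm1 : ∀ {x y : D}, x * y = y * x → ⁅x, y⁆ ∈ K := fun h => by
      rw [commutatorElement_eq_one_iff_mul_comm.2 h]; exact one_mem _
    have inv1 : ∀ i {x y : D}, ⁅y, x⁆ = k i → ⁅x, y⁆ ∈ K := fun i x y h => by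
      rw [← commutatorElement_inv, h]; exact inv_mem (inK i)
    intro x hx y hy
    rcases hx with hx | hx
    swap; · exact comm1 (Wcomm x hx y (hTimg y hy))
    rcases hy with hy | hy
    swap; · exact comm1 (Wcomm y hy x (hTimg x (Or.inl hx))).symm
    rcases hx with rfl | rfl | rfl | rfl <;> rcases hy with rfl | rfl | rfl | rfl
    all_goals first
      | exact inK 0 | exact inK 1 | exact inK 2 | exact inK 3
      | exact inv1 0 rfl | exact inv1 1 rfl | exact inv1 2 rfl | exact inv1 3 rfl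
      | exact comm1 (row _ _ ⟨(_, 0), hlift _⟩ ⟨(_, 0), hlift _⟩)
      | exact comm1 (col _ _ ⟨(0, _), hlift _⟩ ⟨(0, _), hlift _⟩)
  have hKS : K ≤ closure T := by
    rw [hK, closure_le]; rintro _ ⟨i, rfl⟩; exact subset_closure (Or.inr (hkW i))
  -- the derived subgroup of the Sylow subgroup
  have hder : ⁅closure T, closure T⁆ ≤ K := by
    haveI : (K.subgroupOf (closure T)).Normal := ⟨fun n hn g => by
      rw [mem_subgroupOf] at hn ⊢
      simp only [coe_mul, InvMemClass.coe_inv]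
      rw [← hKc _ hn _ g.2, mul_inv_cancel_right]
      exact hn⟩
    let q := QuotientGroup.mk' (K.subgroupOf (closure T))
    let T' : Set (closure T) := (↑) ⁻¹' T
    have hT' : closure T' = ⊤ := closure_closure_coe_preimage
    have h1 : ∀ x ∈ T', ∀ y ∈ T', q x * q y = q y * q x := fun x hx y hy => by
      rw [← commutatorElement_eq_one_iff_mul_comm, ← map_commutatorElement]
      exact (QuotientGroup.eq_one_iff _).2 (mem_subgroupOf.2 (hcommT _ hx _ hy))
    have h2 : closure (q '' T') = ⊤ := by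
      rw [← MonoidHom.map_closure, hT', ← MonoidHom.range_eq_map, MonoidHom.range_eq_top]
      exact QuotientGroup.mk'_surjective _
    haveI hcm : IsMulCommutative (closure (q '' T')) :=
      Subgroup.isMulCommutative_closure (by rintro _ ⟨x, hx, rfl⟩ _ ⟨y, hy, rfl⟩; exact h1 x hx y hy)
    rw [commutator_le]
    intro x hx y hy
    have h3 : q ⁅(⟨x, hx⟩ : closure T), (⟨y, hy⟩ : closure T)⁆ = 1 := by
      rw [map_commutatorElement, commutatorElement_eq_one_iff_mul_comm]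
      exact congrArg Subtype.val (mul_comm' (⟨q ⟨x, hx⟩, h2 ▸ mem_top _⟩ : closure (q '' T'))
        ⟨q ⟨y, hy⟩, h2 ▸ mem_top _⟩)
    exact mem_subgroupOf.1 ((QuotientGroup.eq_one_iff _).1 h3)
  have hAK : π.ker ≤ K := by
    intro a ha
    have haP : a ∈ (P : Subgroup D) := by
      show a ∈ UG.comap π
      rw [mem_comap, MonoidHom.mem_ker.1 ha]; exact one_mem _
    have h1 := SchurMult.mem_commutator_sylow P haP (hc ha) (hperf ha)
    have h2 : a ∈ ⁅(P : Subgroup D), (P : Subgroup D)⁆ := by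
      rw [← map_subtype_commutator]; exact ⟨_, h1, rfl⟩
    exact hder (commutator_mono hgen hgen h2)
  have himg : 4 ≤ Nat.card (K.map π) := by
    have hmem : ∀ b : F, (m 0 b 0 : P3) ∈ K.map π := by
      intro b
      have e1 : (m 0 (1 * 1) 0 : P3) ∈ K.map π := ⟨k 0, subset_closure ⟨0, rfl⟩, kimg _ _⟩
      have e2 : (m 0 (w * 1) 0 : P3) ∈ K.map π := ⟨k 1, subset_closure ⟨1, rfl⟩, kimg _ _⟩
      rw [one_mul] at e1; rw [mul_one] at e2
      rcases hw b with rfl | rfl | rfl | rfl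
      · rw [m_eq_one.2 ⟨rfl, rfl, rfl⟩]; exact one_mem _
      · exact e1
      · exact e2
      · rw [show (m 0 (1 + w) 0 : P3) = m 0 1 0 * m 0 w 0 by rw [m_mul]; simp]
        exact mul_mem e1 e2
    have hinj : Function.Injective fun b : F => (⟨m 0 b 0, hmem b⟩ : K.map π) := fun a b h =>
      congrArg Prod.fst (m_col_inj (u := (a, 0)) (v := (b, 0)) (congrArg Subtype.val h))
    have := Nat.card_le_card_of_injective _ hinj
    rwa [Nat.card_eq_fintype_card (α := F), hF] at this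
  have hcard : Nat.card K = Nat.card π.ker * Nat.card (K.map π) := by
    have e1 := (π.domRestrict K).ker.card_mul_index
    rw [index_ker, MonoidHom.ker_domRestrict, MonoidHom.domRestrict_range] at e1
    rw [← e1, Nat.card_congr (subgroupOfEquivOfLe hAK).toEquiv]
  nlinarith [Nat.mul_le_mul_left (Nat.card π.ker) himg]

end L34

end Cfsg.Agent.Lib.L34
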