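import Cfsg.Agent.Lib.L34.MultBound
import Cfsg.Agent.Lib.Classical.Simple
import Cfsg.Agent.Lib.SchurMult.TransferPairs

/-!
The multiplier of PSL(3,4) is a product of cyclic groups of orders three, four and four.
-/

set_option autoImplicit false

namespace Cfsg.Agent.Lib.L34

open Matrix Subgroup
open scoped commutatorElement

universe u

variable {F : Type u} [Field F] [Fintype F]

local notation "SL3" => SpecialLinearGroup (Fin 3) F
local notation "P3" => ProjectiveSpecialLinearGroup (Fin 3) F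

theorem four_of_card (hF : Fintype.card F = 4) : Four F := by
  haveI := char2 hF
  exact ⟨fun x => by rw [← hF]; exact FiniteField.pow_card x, CharTwo.two_eq_zero⟩

theorem hasMultiplier (hF : Fintype.card F = 4) :
    Cfsg.HasSchurMultiplier P3 (Multiplicative (ZMod 3 × ZMod 4 × ZMod 4)) := by
  classical
  haveI := four_of_card hF
  have h2 : (2 : F) = 0 := Four.two0
  have h4 := Four.pow4 (F := F)
  obtain ⟨w, hw0, hw1⟩ : ∃ w : F, w ≠ 0 ∧ w ≠ 1 := by
    obtain ⟨x, -, hx⟩ := Finset.exists_mem_notMem_of_card_lt_card (s := ({0, 1} : Finset F)) (t := Finset.univ)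
      (by rw [Finset.card_univ, hF]; exact Finset.card_le_two.trans_lt (by norm_num))
    simp only [Finset.mem_insert, Finset.mem_singleton, not_or] at hx
    exact ⟨x, hx.1, hx.2⟩
  have hw : w ^ 2 + w + 1 = 0 := by
    refine mul_left_cancel₀ (sub_ne_zero.2 hw1) ?_
    rw [mul_zero]
    refine mul_left_cancel₀ hw0 ?_
    linear_combination h4 w
  -- the two homocyclic subgroups
  let ls : Fin 2 → F := ![1, w]
  have hls : ∀ j, ls j ≠ 0 := fun j => by fin_cases j <;> simp [ls, hw0]
  let X : Fin 2 → Ext F := fun j => ⟨1, 0, ls j, 0, 0⟩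
  let Y : Fin 2 → Ext F := fun j => ⟨w, 0, ls j * w, 0, 0⟩
  have hX : ∀ j, X j ∈ Kl F (ls j) := fun j => (mul_one _).symm
  have hY : ∀ j, Y j ∈ Kl F (ls j) := fun j => rfl
  have hC : ∀ j, ⁅X j, Y j⁆ = Ext.ker (ls j ^ 2) (ls j * w ^ 2) := fun j => by
    rw [Ext.commutator_eq _ _ (by simp [X, Y]; ring)]
    congr 1
    · simp only [Ext.comU, X, Y]
      linear_combination ls j ^ 2 * hw - ls j ^ 2 * h2
    · simp only [Ext.comV, Ext.comU, X, Y]
      linear_combination w ^ 2 * ls j ^ 4 * hw + w ^ 2 * h4 (ls j) - w ^ 2 * ls j ^ 4 * h2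
  have hker : ∀ j, Ext.proj ⁅X j, Y j⁆ = 1 := fun j => by rw [hC, proj_ker]
  have hcen : ∀ j, ⁅X j, Y j⁆ ∈ center (Ext F) := fun j => ker_proj_le_center (hker j)
  have hpair : ∀ j, Commute (Ext.proj (X j)) (Ext.proj (Y j)) ∧ Ext.proj ⁅X j, Y j⁆ = 1 ∧
      ∀ (g : P3) (a b d : ℕ) (u v : Ext F), a ∣ orderOf (Ext.proj (X j)) → d ∣ orderOf (Ext.proj (Y j)) → b < d →
        Ext.proj u = g⁻¹ * (Ext.proj (X j) ^ a * Ext.proj (Y j) ^ b) * g →
        Ext.proj v = g⁻¹ * Ext.proj (Y j) ^ d * g → ⁅u, v⁆ = ⁅X j, Y j⁆ ^ (a * d) := by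
    intro j
    refine ⟨commutatorElement_eq_one_iff_commute.1 (by rw [← map_commutatorElement, hker]), hker j,
      fun g a b d u v _ _ _ hu hv => ?_⟩
    rw [← map_pow, ← map_pow, ← map_mul] at hu
    rw [← map_pow] at hv
    rw [fusion_stable (hls j) g (mul_mem (pow_mem (hX j) a) (pow_mem (hY j) b)) (pow_mem (hY j) d) hu hv,
      show ⁅X j ^ a * Y j ^ b, Y j ^ d⁆ = ⁅X j ^ a, Y j ^ d⁆ by simp only [commutatorElement_def]; group,
      comm_pow (hcen j)]
  obtain ⟨r, hr, hrc⟩ := SchurMult.TransferExt.exists_mult_hom_of_stable (P := (Ext.proj : Ext F →* P3).range)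
    rfl ker_proj_le_center (fun j => Ext.proj (X j)) (fun j => Ext.proj (Y j)) (fun j => ⁅X j, Y j⁆) hpair
  rw [index_range_proj hF] at hrc
  -- the coefficient group
  set W := (Ext.proj : Ext F →* P3).ker with hW
  letI cW : CommGroup W := { (inferInstance : Group W) with
    mul_comm := fun a b => Subtype.ext (mem_center_iff.1 (ker_proj_le_center b.2) a) }
  have hWcard : Nat.card W = 16 := by
    have e : Function.Bijective (fun u : F × F => (⟨Ext.ker u.1 u.2, proj_ker _ _⟩ : W)) := by
      refine ⟨fun a b h => ?_, fun s => ⟨(s.1.u, s.1.v), Subtype.ext (proj_eq_one s.2).symm⟩⟩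
      have h' := congrArg Subtype.val h
      exact Prod.ext (congrArg Ext.u h') (congrArg Ext.v h')
    rw [← Nat.card_eq_of_bijective _ e, Nat.card_prod, Nat.card_eq_fintype_card, hF]
  let cw : Fin 2 → W := fun j => ⟨⁅X j, Y j⁆, hker j⟩
  have sq : ∀ x y : F, (Ext.ker x y : Ext F) * Ext.ker x y = Ext.ker 0 (x ^ 2) := fun x y => by
    ext <;> simp [Ext.mul_def, Ext.ker]
    · linear_combination x * h2
    · linear_combination y * h2
  have hpow4 : ∀ s : W, s ^ 4 = 1 := fun s => Subtype.ext (by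
    rw [SubgroupClass.coe_pow, proj_eq_one s.2, show 4 = 2 * 2 from rfl, pow_mul, pow_two, pow_two, sq, sq]
    simp [Ext.ker, Ext.one_def])
  let ψ₁ : Fin 2 → (Multiplicative (ZMod 4) →* W) := fun j => AddMonoidHom.toMultiplicativeLeft
    (ZMod.lift 4 ⟨zmultiplesHom _ (Additive.ofMul (cw j)), by
      simp only [zmultiplesHom_apply]
      rw [← ofMul_zpow, zpow_natCast, hpow4, ofMul_one]⟩)
  have hψ₁ : ∀ j, ψ₁ j (Multiplicative.ofAdd 1) = cw j := fun j => by
    simp [ψ₁]
    rw [show ((1 : ZMod 4)) = ((1 : ℤ) : ZMod 4) by norm_num, ZMod.lift_coe]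
    simp
  let ψ : Multiplicative (ZMod 4) × Multiplicative (ZMod 4) →* W := (ψ₁ 0).coprod (ψ₁ 1)
  have hψinj : Function.Injective ψ := by
    rw [injective_iff_map_eq_one]
    intro x hx
    by_contra hx1
    have key : ∀ y : Multiplicative (ZMod 4) × Multiplicative (ZMod 4), y = 1 ∨
        (∃ i ∈ [((2 : ZMod 4), (0 : ZMod 4)), (0, 2), (2, 2)], y = (Multiplicative.ofAdd i.1, Multiplicative.ofAdd i.2) ∨
          y * y = (Multiplicative.ofAdd i.1, Multiplicative.ofAdd i.2)) := by decide
    have two : ∀ j, ψ₁ j (Multiplicative.ofAdd 2) = cw j * cw j := fun j => by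
      rw [← hψ₁ j, ← map_mul]; rfl
    have cval : ∀ j, ((cw j * cw j : W) : Ext F) = Ext.ker 0 (ls j) := fun j => by
      show ⁅X j, Y j⁆ * ⁅X j, Y j⁆ = _
      rw [hC, sq]; congr 1; linear_combination h4 (ls j)
    have hbad : ∀ i ∈ [((2 : ZMod 4), (0 : ZMod 4)), (0, 2), (2, 2)],
        ψ (Multiplicative.ofAdd i.1, Multiplicative.ofAdd i.2) ≠ 1 := by
      intro i hi e
      simp only [List.mem_cons, List.not_mem_nil, or_false] at hi
      have e' := congrArg Subtype.val e
      rcases hi with rfl | rfl | rfl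
      · simp only [ψ, MonoidHom.coprod_apply, two, ofAdd_zero, map_one, mul_one] at e'
        rw [cval] at e'
        have := congrArg Ext.v e'
        simp [Ext.ker, Ext.one_def, ls] at this
      · simp only [ψ, MonoidHom.coprod_apply, two, ofAdd_zero, map_one, one_mul] at e'
        rw [cval] at e'
        have := congrArg Ext.v e'
        simp [Ext.ker, Ext.one_def, ls, hw0] at this
      · simp only [ψ, MonoidHom.coprod_apply, two] at e'
        rw [Subgroup.coe_mul, cval, cval] at e'
        have := congrArg Ext.v e'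
        simp [Ext.ker, Ext.mul_def, Ext.one_def, ls] at this
        exact hw1 (by linear_combination this - h2)
    rcases key x with h | ⟨i, hi, h | h⟩
    · exact hx1 h
    · exact hbad i hi (h ▸ hx)
    · exact hbad i hi (h ▸ by rw [map_mul, hx, one_mul])
  have hψbij : Function.Bijective ψ :=
    (Nat.bijective_iff_injective_and_card _).2 ⟨hψinj, by
      rw [hWcard, Nat.card_prod, Nat.card_congr Multiplicative.toAdd, Nat.card_zmod]⟩
  let r' : SchurMult.mult (SchurMult.stdPres P3) →* W := r.codRestrict W hr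
  have hr'surj : Function.Surjective r' := by
    have hmem : ∀ j, cw j ∈ r'.range := fun j => by
      obtain ⟨m, hm⟩ := hrc j
      have e : r' m = cw j ^ 315 := Subtype.ext hm
      refine ⟨m ^ 3, ?_⟩
      rw [map_pow, e, ← pow_mul, show 315 * 3 = 4 * 236 + 1 by norm_num, pow_succ, pow_mul, hpow4, one_pow,
        one_mul]
    intro s
    obtain ⟨⟨a, b⟩, rfl⟩ := hψbij.2 s
    have h1 : ∀ j (a : Multiplicative (ZMod 4)), ψ₁ j a ∈ r'.range := fun j a => by
      have ha : a = Multiplicative.ofAdd 1 ^ (Multiplicative.toAdd a).val := by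
        rw [← ofAdd_nsmul, nsmul_one, ZMod.natCast_zmod_val]; rfl
      rw [ha, map_pow, hψ₁]
      exact pow_mem (hmem j) _
    exact mul_mem (h1 0 a) (h1 1 b)
  -- the cover by SL(3,4)
  haveI : Finite P3 := inferInstance
  let σ3 : SL3 →* P3 := QuotientGroup.mk' (center SL3)
  have hk3 : σ3.ker = center SL3 := QuotientGroup.ker_mk' _
  have hσ3 : Cfsg.IsStemExtension σ3 := ⟨QuotientGroup.mk'_surjective _, hk3.le, by
    rw [Lib.Classical.SL_commutator_eq_top (by rw [Fintype.card_fin])]; exact le_top⟩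
  have hcard3 : Nat.card σ3.ker = 3 := by
    rw [hk3, Lib.Classical.card_center_SL, hF, Fintype.card_fin]; norm_num
  obtain ⟨η, hη⟩ := SchurMult.exists_stem_lift (SchurMult.stdPres P3) hσ3
  obtain ⟨f3, hf3, -⟩ :=
    SchurMult.exists_surj_mult (SchurMult.stdPres P3) (SchurMult.stdPres_surjective P3) hσ3 hη
  haveI := SchurMult.finite_mult (SchurMult.stdPres P3)
  have hM : Nat.card (SchurMult.mult (SchurMult.stdPres P3)) ≤ 48 := by
    obtain ⟨L, hL⟩ := SchurMult.exists_compl_ker (SchurMult.stdPres P3)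
    haveI := hL.normal
    obtain ⟨hfin, hst, ⟨e⟩⟩ :=
      SchurMult.cover_of_compl (SchurMult.stdPres P3) (SchurMult.stdPres_surjective P3) hL
    haveI := hfin
    rw [← Nat.card_congr e.toEquiv]
    exact card_ker_le_bound hst hF
  let g := r'.prod f3
  have hg : Function.Bijective g := by
    have hcard : Nat.card (W × σ3.ker) = 48 := by rw [Nat.card_prod, hWcard, hcard3]
    have h16 : 16 ∣ Nat.card g.range := by
      rw [← hWcard]
      exact Subgroup.card_dvd_of_surjective ((MonoidHom.fst W σ3.ker).comp g.range.subtype) fun s => by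
        obtain ⟨m, hm⟩ := hr'surj s
        exact ⟨⟨g m, m, rfl⟩, hm⟩
    have h3 : 3 ∣ Nat.card g.range := by
      have h3' : Nat.card σ3.ker ∣ Nat.card g.range := Subgroup.card_dvd_of_surjective ((MonoidHom.snd W σ3.ker).comp g.range.subtype) fun s => by
        obtain ⟨m, hm⟩ := hf3 s
        exact ⟨⟨g m, m, rfl⟩, hm⟩
      rwa [hcard3] at h3'
    have h48 : 48 ≤ Nat.card g.range :=
      Nat.le_of_dvd Nat.card_pos ((by norm_num : Nat.Coprime 16 3).mul_dvd_of_dvd_of_dvd h16 h3)
    have hsurj : Function.Surjective g := by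
      rw [← MonoidHom.range_eq_top]
      exact eq_top_of_card_eq _ (le_antisymm
        (Nat.card_le_card_of_injective _ g.range.subtype_injective) (hcard ▸ h48))
    refine (Nat.bijective_iff_surjective_and_card _).2 ⟨hsurj, le_antisymm (hcard ▸ hM) ?_⟩
    exact Nat.card_le_card_of_surjective g hsurj
  haveI : Fact (Nat.Prime 3) := ⟨Nat.prime_three⟩
  haveI : IsCyclic σ3.ker := isCyclic_of_prime_card (p := 3) hcard3
  let e3 : σ3.ker ≃* Multiplicative (ZMod 3) := (zmodCyclicMulEquiv (G := σ3.ker) inferInstance).symm.trans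
    (AddEquiv.toMultiplicative (ZMod.ringEquivCongr hcard3).toAddEquiv)
  let e : SchurMult.mult (SchurMult.stdPres P3) ≃* Multiplicative (ZMod 3 × ZMod 4 × ZMod 4) :=
    (MulEquiv.ofBijective g hg).trans
      ((MulEquiv.prodComm).trans
        ((MulEquiv.prodCongr e3 ((MulEquiv.ofBijective ψ hψbij).symm.trans
          (MulEquiv.prodMultiplicative (ZMod 4) (ZMod 4)).symm)).trans
            (MulEquiv.prodMultiplicative (ZMod 3) (ZMod 4 × ZMod 4)).symm))
  exact SchurMult.hasSchurMultiplier_mult (SchurMult.stdPres P3) (SchurMult.stdPres_surjective P3) e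

end Cfsg.Agent.Lib.L34
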