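import Cfsg.Agent.Lib.L34.SylowExtStable
import Cfsg.Agent.Lib.SchurMult.Exponent
import Cfsg.Agent.Lib.SchurMult.SylowTests

/-!
The kernel of a stem extension of PSL(3,4) has order at most 48.
-/

set_option autoImplicit false

namespace Cfsg.Agent.Lib.L34

open Matrix Subgroup
open scoped commutatorElement

universe u v

/-- The transfer: a central element of the derived group lies in the derived group of a subgroup of coprime
index containing it. -/
theorem mem_commutator_of_index {Γ : Type v} [Group Γ] [Finite Γ] (H : Subgroup Γ) {z : Γ} (hzH : z ∈ H)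
    (hzc : z ∈ center Γ) (hz : z ∈ commutator Γ) (hcop : H.index.Coprime (orderOf z)) : z ∈ ⁅H, H⁆ := by
  set φ := (Abelianization.of : H →* Abelianization H)
  have h1 : MonoidHom.transfer φ z = 1 := Abelianization.commutator_subset_ker (MonoidHom.transfer φ) hz
  have key : ∀ (k : ℕ) (g₀ : Γ), g₀⁻¹ * z ^ k * g₀ ∈ H → g₀⁻¹ * z ^ k * g₀ = z ^ k := fun k g₀ _ => by
    rw [mul_assoc, ← mem_center_iff.1 (pow_mem hzc k) g₀, inv_mul_cancel_left]
  rw [MonoidHom.transfer_eq_pow φ z key] at h1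
  have h2 : (⟨z, hzH⟩ : H) ^ H.index ∈ commutator H := by
    rw [← Abelianization.ker_of]
    exact h1
  obtain ⟨b, hb⟩ := exists_pow_eq_self_of_coprime (x := (⟨z, hzH⟩ : H)) (n := H.index)
    (by rwa [Subgroup.orderOf_mk])
  have h3 : (⟨z, hzH⟩ : H) ∈ commutator H := hb ▸ pow_mem h2 b
  rw [← map_subtype_commutator]
  exact ⟨_, h3, rfl⟩

/-- The part of the kernel at a prime whose Sylow subgroups have order the square of the prime lies in a
subgroup of that prime order at most. -/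
theorem exists_bound_sq {Γ : Type v} [Group Γ] [Finite Γ] {G : Type u} [Group G] [Finite G] {σ : Γ →* G}
    (hσ : Cfsg.IsStemExtension σ) {p : ℕ} [hp : Fact p.Prime] (Q : Sylow p G)
    (hQ : Nat.card (Q : Subgroup G) = p ^ 2) :
    ∃ c : Γ, c ^ p = 1 ∧ ∀ z ∈ σ.ker, z ^ p = 1 → z ∈ zpowers c := by
  obtain ⟨a, ha⟩ := exists_prime_orderOf_dvd_card' (G := (Q : Subgroup G)) p (hQ ▸ dvd_pow_self p two_ne_zero)
  obtain ⟨b, hb⟩ : ∃ b : (Q : Subgroup G), b ∉ zpowers a := by
    by_contra! h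
    have h1 := Nat.card_le_card_of_injective (fun x : (Q : Subgroup G) => (⟨x, h x⟩ : zpowers a))
      fun x y e => congrArg Subtype.val e
    rw [Nat.card_zpowers, ha, hQ, pow_two] at h1
    have := hp.out.two_le
    nlinarith
  have hcommQ : ∀ x y : (Q : Subgroup G), x * y = y * x :=
    IsPGroup.commutative_of_card_eq_prime_sq hQ
  have hgen : closure ({(a : G), (b : G)} : Set G) = Q := by
    have hle : closure ({(a : G), (b : G)} : Set G) ≤ Q := by
      rw [closure_le]; rintro x (rfl | rfl)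
      · exact a.2
      · exact b.2
    refine eq_of_le_of_card_ge hle ?_
    obtain ⟨i, hi2, hi⟩ := (Nat.dvd_prime_pow hp.out).1 (hQ ▸ card_dvd_of_le hle)
    have hz : zpowers (a : G) ≤ closure ({(a : G), (b : G)} : Set G) := by
      rw [zpowers_le]; exact subset_closure (Or.inl rfl)
    have h1 : ¬ closure ({(a : G), (b : G)} : Set G) ≤ zpowers (a : G) := fun h => by
      obtain ⟨n, hn⟩ := mem_zpowers_iff.1 (h (subset_closure (Or.inr rfl)))
      exact hb (mem_zpowers_iff.2 ⟨n, Subtype.ext (by rw [SubgroupClass.coe_zpow]; exact hn)⟩)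
    rw [hQ, hi]
    refine Nat.pow_le_pow_right hp.out.pos ?_
    by_contra hlt
    refine h1 (eq_of_le_of_card_ge hz ?_).ge
    rw [hi, Nat.card_zpowers, Subgroup.orderOf_coe, ha]
    calc p ^ i ≤ p ^ 1 := Nat.pow_le_pow_right hp.out.pos (by omega)
      _ = p := pow_one p
  obtain ⟨A, hA⟩ := hσ.1 a
  obtain ⟨B, hB⟩ := hσ.1 b
  have hc : ⁅A, B⁆ ∈ center Γ := hσ.2.1 (by
    rw [MonoidHom.mem_ker, map_commutatorElement, hA, hB, commutatorElement_eq_one_iff_mul_comm]
    exact congrArg Subtype.val (hcommQ a b))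
  set c := ⁅A, B⁆ with hcdef
  have hAp : A ^ p ∈ center Γ := hσ.2.1 (by
    rw [MonoidHom.mem_ker, map_pow, hA, ← SubgroupClass.coe_pow,
      show a ^ p = 1 from orderOf_dvd_iff_pow_eq_one.1 (by rw [ha])]; rfl)
  refine ⟨c, ?_, fun z hz hzp => ?_⟩
  · have h := comm_pow hc p 1
    rw [pow_one, mul_one, ← hcdef] at h
    rw [← h, commutatorElement_eq_one_iff_mul_comm]
    exact (mem_center_iff.1 hAp B).symm
  haveI : (zpowers c).Normal := ⟨fun n hn g => by
    obtain ⟨i, rfl⟩ := mem_zpowers_iff.1 hn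
    rw [mem_center_iff.1 (zpow_mem hc i) g, mul_inv_cancel_right]
    exact hn⟩
  set H := (Q : Subgroup G).comap σ with hH
  have hzH : z ∈ H := by
    rw [hH, mem_comap, MonoidHom.mem_ker.1 hz]; exact one_mem _
  have hidx : H.index.Coprime (orderOf z) := by
    rw [hH, index_comap_of_surjective _ hσ.1]
    have h1 : (Q : Subgroup G).index.Coprime p := ((hp.out.coprime_iff_not_dvd).2 Q.not_dvd_index).symm
    exact h1.coprime_dvd_right (orderOf_dvd_of_pow_eq_one hzp)
  have hmem := mem_commutator_of_index H hzH (hσ.2.1 hz) (hσ.2.2 hz) hidx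
  let q := QuotientGroup.mk' (zpowers c)
  have hHS : H = closure ({A, B} ∪ (σ.ker : Set Γ)) := by
    rw [hH, ← hgen, ← hA, ← hB, ← Set.image_pair, SchurMult.comap_closure hσ.1, Subgroup.closure_union,
      Subgroup.closure_eq]
  have hgc : ∀ x ∈ ({A, B} ∪ (σ.ker : Set Γ)), ∀ y ∈ ({A, B} ∪ (σ.ker : Set Γ)), q x * q y = q y * q x := by
    have e : q A * q B = q B * q A := by
      rw [← commutatorElement_eq_one_iff_mul_comm, ← map_commutatorElement]
      exact (QuotientGroup.eq_one_iff _).2 (mem_zpowers c)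
    intro x hx y hy
    rcases hx with hx | hx
    swap
    · rw [← map_mul, ← map_mul, mem_center_iff.1 (hσ.2.1 hx) y]
    rcases hy with hy | hy
    swap
    · rw [← map_mul, ← map_mul, mem_center_iff.1 (hσ.2.1 hy) x]
    rcases hx with rfl | rfl <;> rcases hy with rfl | rfl
    exacts [rfl, e, e.symm, rfl]
  haveI hcm : IsMulCommutative (closure (q '' ({A, B} ∪ (σ.ker : Set Γ)))) :=
    Subgroup.isMulCommutative_closure (by rintro _ ⟨x, hx, rfl⟩ _ ⟨y, hy, rfl⟩; exact hgc x hx y hy)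
  have hle : ⁅H, H⁆ ≤ zpowers c := by
    rw [Subgroup.commutator_le, hHS]
    intro x hx y hy
    have hmap : ∀ x ∈ closure ({A, B} ∪ (σ.ker : Set Γ)), q x ∈ closure (q '' ({A, B} ∪ (σ.ker : Set Γ))) := by
      intro x hx
      rw [← MonoidHom.map_closure]
      exact mem_map_of_mem q hx
    refine (QuotientGroup.eq_one_iff _).1 ?_
    show q ⁅x, y⁆ = 1
    rw [map_commutatorElement, commutatorElement_eq_one_iff_mul_comm]
    exact congrArg Subtype.val (mul_comm' (⟨q x, hmap x hx⟩ : closure (q '' ({A, B} ∪ (σ.ker : Set Γ))))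
      ⟨q y, hmap y hy⟩)
  exact hle hmem

section Bound

variable {F : Type u} [Field F] [Fintype F] [Four F]

local notation "P3" => ProjectiveSpecialLinearGroup (Fin 3) F

omit [Fintype F] in
theorem mem_range_proj {g : P3} : g ∈ (Ext.proj : Ext F →* P3).range ↔ ∃ a b c, g = m a b c := by
  constructor
  · rintro ⟨s, rfl⟩; exact ⟨_, _, _, proj_apply s⟩
  · rintro ⟨a, b, c, rfl⟩
    refine ⟨⟨a, b + a * c, c, 0, 0⟩, ?_⟩
    rw [proj_apply]
    congr 1
    linear_combination (a * c) * (Four.two0 : (2 : F) = 0)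

theorem card_range_proj (hF : Fintype.card F = 4) : Nat.card (Ext.proj : Ext F →* P3).range = 64 := by
  have e : Function.Bijective (fun u : F × F × F =>
      (⟨m u.1 u.2.1 u.2.2, mem_range_proj.2 ⟨_, _, _, rfl⟩⟩ : (Ext.proj : Ext F →* P3).range)) := by
    refine ⟨fun u v h => ?_, fun g => ?_⟩
    · obtain ⟨h1, h2, h3⟩ := m_inj3 (congrArg Subtype.val h)
      exact Prod.ext h1 (Prod.ext h2 h3)
    · obtain ⟨a, b, c, h⟩ := mem_range_proj.1 g.2
      exact ⟨(a, b, c), Subtype.ext h.symm⟩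
  rw [← Nat.card_eq_of_bijective _ e, Nat.card_prod, Nat.card_prod, Nat.card_eq_fintype_card, hF]

omit [Four F] in
theorem card_P3 (hF : Fintype.card F = 4) : Nat.card P3 = 20160 := by
  classical
  have h := (center (SpecialLinearGroup (Fin 3) F)).card_mul_index
  rw [card_SL3 hF, Lib.Classical.card_center_SL, hF, Fintype.card_fin] at h
  norm_num at h
  show Nat.card (SpecialLinearGroup (Fin 3) F ⧸ center (SpecialLinearGroup (Fin 3) F)) = _
  rw [← index_eq_card]
  omega

theorem index_range_proj (hF : Fintype.card F = 4) : (Ext.proj : Ext F →* P3).range.index = 315 := by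
  have h := (Ext.proj : Ext F →* P3).range.card_mul_index
  rw [card_range_proj hF, card_P3 hF] at h
  omega

theorem derived_sq {D : Type v} [Group D] [Finite D] (π : D →* P3) (hπ : Function.Surjective π)
    (hF : Fintype.card F = 4) (hc : π.ker ≤ center D)
    (row : ∀ x y : D, (∃ u : F × F, π x = m u.1 u.2 0) → (∃ u : F × F, π y = m u.1 u.2 0) → x * y = y * x)
    (col : ∀ x y : D, (∃ u : F × F, π x = m 0 u.1 u.2) → (∃ u : F × F, π y = m 0 u.1 u.2) → x * y = y * x)
    {z : D} (hz : z ∈ ⁅(Ext.proj : Ext F →* P3).range.comap π, (Ext.proj : Ext F →* P3).range.comap π⁆) :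
    z * z = 1 := by
  classical
  haveI := char2 hF
  have two0 : ∀ a : F, a + a = 0 := CharTwo.add_self_eq_zero
  set UG := (Ext.proj : Ext F →* P3).range with hUG
  have hUGmem : ∀ g, g ∈ UG ↔ ∃ a b c, g = m a b c := fun g => mem_range_proj
  obtain ⟨w, hw⟩ := exists_basis hF
  choose lift hlift using hπ
  let k : Fin 4 → D := ![⁅lift (m 1 0 0), lift (m 0 0 1)⁆, ⁅lift (m w 0 0), lift (m 0 0 1)⁆,
    ⁅lift (m 1 0 0), lift (m 0 0 w)⁆, ⁅lift (m w 0 0), lift (m 0 0 w)⁆]
  -- central elements of the Sylow subgroup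
  let W : Set D := {g | ∃ b, π g = m 0 b 0}
  have hminv : ∀ a b c : F, (m a b c : P3)⁻¹ = m (-a) (a * c - b) (-c) := fun a b c => by
    rw [inv_eq_iff_mul_eq_one, m_mul, m_eq_one]; refine ⟨?_, ?_, ?_⟩ <;> ring
  have kimg : ∀ a c : F, π ⁅lift (m a 0 0), lift (m 0 0 c)⁆ = m 0 (a * c) 0 := fun a c => by
    rw [map_commutatorElement, hlift, hlift, commutatorElement_def, hminv, hminv, m_mul, m_mul,
      m_mul]
    congr 1 <;> ring
  have hkW : ∀ i, k i ∈ W := fun i => by
    fin_cases i <;> exact ⟨_, kimg _ _⟩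
  have Wcomm : ∀ g ∈ W, ∀ x, (∃ u : F × F, π x = m u.1 u.2 0) ∨ (∃ u : F × F, π x = m 0 u.1 u.2) →
      g * x = x * g := by
    rintro g ⟨b, hb⟩ x (hx | hx)
    · exact row g x ⟨(0, b), hb⟩ hx
    · exact col g x ⟨(b, 0), hb⟩ hx
  set K := closure (Set.range k) with hK
  have hcommW : ∀ i j, k i * k j = k j * k i := fun i j => by
    obtain ⟨b, hb⟩ := hkW j
    exact Wcomm _ (hkW i) _ (Or.inl ⟨(0, b), hb⟩)
  have sqk : ∀ a c : F, ⁅lift (m a 0 0), lift (m 0 0 c)⁆ * ⁅lift (m a 0 0), lift (m 0 0 c)⁆ = 1 := by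
    intro a c
    set x := lift (m a 0 0)
    set y := lift (m 0 0 c)
    have e : ⁅x, y⁆ * x = x * ⁅x, y⁆ := Wcomm _ ⟨_, kimg a c⟩ x (Or.inl ⟨(a, 0), hlift _⟩)
    have hx2 : x * x ∈ π.ker := by
      rw [MonoidHom.mem_ker, map_mul, hlift, m_mul, m_eq_one]; simp [two0]
    calc ⁅x, y⁆ * ⁅x, y⁆ = x * ⁅x, y⁆ * x⁻¹ * ⁅x, y⁆ := by rw [← e, mul_inv_cancel_right]
      _ = ⁅x * x, y⁆ := by rw [commutatorElement_def, commutatorElement_def]; group
      _ = 1 := commutatorElement_eq_one_iff_mul_comm.2 (mem_center_iff.1 (hc hx2) y).symm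
  have hK16 : Nat.card K ≤ 16 := card_closure_four k (fun i => by fin_cases i <;> exact sqk _ _) hcommW
  -- generators of the Sylow subgroup
  let T : Set D := {lift (m 1 0 0), lift (m w 0 0), lift (m 0 0 1), lift (m 0 0 w)} ∪ W
  have hgen : UG.comap π ≤ closure T := by
    intro g hg
    obtain ⟨a, b, c, habc⟩ := (hUGmem _).1 hg
    have hone : (m 0 0 0 : P3) = 1 := m_eq_one.2 ⟨rfl, rfl, rfl⟩
    have hT : ∀ x ∈ T, π x ∈ (closure T).map π := fun x hx => ⟨x, subset_closure hx, rfl⟩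
    have in1 : ∀ a : F, (m a 0 0 : P3) ∈ (closure T).map π := by
      intro a
      rcases hw a with rfl | rfl | rfl | rfl
      · rw [hone]; exact one_mem _
      · rw [← hlift (m 1 0 0)]; exact hT _ (by simp [T])
      · rw [← hlift (m a 0 0)]; exact hT _ (by simp [T])
      · rw [show (m (1 + w) 0 0 : P3) = m 1 0 0 * m w 0 0 by rw [m_mul]; simp, ← hlift (m 1 0 0),
          ← hlift (m w 0 0)]
        exact mul_mem (hT _ (by simp [T])) (hT _ (by simp [T]))
    have in3 : ∀ a : F, (m 0 0 a : P3) ∈ (closure T).map π := by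
      intro a
      rcases hw a with rfl | rfl | rfl | rfl
      · rw [hone]; exact one_mem _
      · rw [← hlift (m 0 0 1)]; exact hT _ (by simp [T])
      · rw [← hlift (m 0 0 a)]; exact hT _ (by simp [T])
      · rw [show (m 0 0 (1 + w) : P3) = m 0 0 1 * m 0 0 w by rw [m_mul]; simp, ← hlift (m 0 0 1),
          ← hlift (m 0 0 w)]
        exact mul_mem (hT _ (by simp [T])) (hT _ (by simp [T]))
    have in2 : (m 0 b 0 : P3) ∈ (closure T).map π := by
      rw [← hlift (m 0 b 0)]; exact hT _ (Or.inr ⟨b, hlift _⟩)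
    obtain ⟨g', hg', he⟩ : π g ∈ (closure T).map π := by
      rw [habc, show (m a b c : P3) = m 0 0 c * m 0 b 0 * m a 0 0 by rw [m_mul, m_mul]; simp]
      exact mul_mem (mul_mem (in3 c) in2) (in1 a)
    have : g'⁻¹ * g ∈ W := ⟨0, by rw [map_mul, map_inv, he, inv_mul_cancel, hone]⟩
    have := mul_mem hg' (subset_closure (Or.inr this : g'⁻¹ * g ∈ T))
    rwa [mul_inv_cancel_left] at this
  have hTimg : ∀ x ∈ T, (∃ u : F × F, π x = m u.1 u.2 0) ∨ (∃ u : F × F, π x = m 0 u.1 u.2) := by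
    rintro x ((rfl | rfl | rfl | rfl) | ⟨b, hb⟩)
    · exact Or.inl ⟨(1, 0), hlift _⟩
    · exact Or.inl ⟨(w, 0), hlift _⟩
    · exact Or.inr ⟨(0, 1), hlift _⟩
    · exact Or.inr ⟨(0, w), hlift _⟩
    · exact Or.inl ⟨(0, b), hb⟩
  have hKc : ∀ z ∈ K, ∀ x ∈ closure T, z * x = x * z := by
    intro z hz x hx
    have h1 : closure T ≤ centralizer (Set.range k) := by
      rw [closure_le]; intro t ht'
      exact mem_centralizer_iff.2 (by rintro _ ⟨i, rfl⟩; exact Wcomm _ (hkW i) t (hTimg t ht'))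
    have h2 : K ≤ centralizer ((closure T : Subgroup D) : Set D) := by
      rw [hK, closure_le]; rintro _ ⟨i, rfl⟩
      exact mem_centralizer_iff.2 fun t ht' => (mem_centralizer_iff.1 (h1 ht') _ ⟨i, rfl⟩).symm
    exact (mem_centralizer_iff.1 (h2 hz) x hx).symm
  have hcommT : ∀ x ∈ T, ∀ y ∈ T, ⁅x, y⁆ ∈ K := by
    have inK : ∀ i, k i ∈ K := fun i => subset_closure ⟨i, rfl⟩
    have comm1 : ∀ {x y : D}, x * y = y * x → ⁅x, y⁆ ∈ K := fun h => by
      rw [commutatorElement_eq_one_iff_mul_comm.2 h]; exact one_mem _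
    have inv1 : ∀ i {x y : D}, ⁅y, x⁆ = k i → ⁅x, y⁆ ∈ K := fun i x y h => by
      rw [← commutatorElement_inv, h]; exact inv_mem (inK i)
    intro x hx y hy
    rcases hx with hx | hx
    swap; · exact comm1 (Wcomm x hx y (hTimg y hy))
    rcases hy with hy | hy
    swap; · exact comm1 (Wcomm y hy x (hTimg x (Or.inl hx))).symm
    rcases hx with rfl | rfl | rfl | rfl <;> rcases hy with rfl | rfl | rfl | rfl
    all_goals first
      | exact inK 0 | exact inK 1 | exact inK 2 | exact inK 3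
      | exact inv1 0 rfl | exact inv1 1 rfl | exact inv1 2 rfl | exact inv1 3 rfl
      | exact comm1 (row _ _ ⟨(_, 0), hlift _⟩ ⟨(_, 0), hlift _⟩)
      | exact comm1 (col _ _ ⟨(0, _), hlift _⟩ ⟨(0, _), hlift _⟩)
  have hKS : K ≤ closure T := by
    rw [hK, closure_le]; rintro _ ⟨i, rfl⟩; exact subset_closure (Or.inr (hkW i))
  -- the derived subgroup of the Sylow subgroup
  have hder : ⁅closure T, closure T⁆ ≤ K := by
    haveI : (K.subgroupOf (closure T)).Normal := ⟨fun n hn g => by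
      rw [mem_subgroupOf] at hn ⊢
      simp only [coe_mul, InvMemClass.coe_inv]
      rw [← hKc _ hn _ g.2, mul_inv_cancel_right]
      exact hn⟩
    let q := QuotientGroup.mk' (K.subgroupOf (closure T))
    let T' : Set (closure T) := (↑) ⁻¹' T
    have hT' : closure T' = ⊤ := closure_closure_coe_preimage
    have h1 : ∀ x ∈ T', ∀ y ∈ T', q x * q y = q y * q x := fun x hx y hy => by
      rw [← commutatorElement_eq_one_iff_mul_comm, ← map_commutatorElement]
      exact (QuotientGroup.eq_one_iff _).2 (mem_subgroupOf.2 (hcommT _ hx _ hy))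
    have h2 : closure (q '' T') = ⊤ := by
      rw [← MonoidHom.map_closure, hT', ← MonoidHom.range_eq_map, MonoidHom.range_eq_top]
      exact QuotientGroup.mk'_surjective _
    haveI hcm : IsMulCommutative (closure (q '' T')) :=
      Subgroup.isMulCommutative_closure (by rintro _ ⟨x, hx, rfl⟩ _ ⟨y, hy, rfl⟩; exact h1 x hx y hy)
    rw [commutator_le]
    intro x hx y hy
    have h3 : q ⁅(⟨x, hx⟩ : closure T), (⟨y, hy⟩ : closure T)⁆ = 1 := by
      rw [map_commutatorElement, commutatorElement_eq_one_iff_mul_comm]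
      exact congrArg Subtype.val (mul_comm' (⟨q ⟨x, hx⟩, h2 ▸ mem_top _⟩ : closure (q '' T'))
        ⟨q ⟨y, hy⟩, h2 ▸ mem_top _⟩)
    exact mem_subgroupOf.1 ((QuotientGroup.eq_one_iff _).1 h3)
  have hzK : z ∈ K := hder (commutator_mono hgen hgen hz)
  clear hz
  induction hzK using Subgroup.closure_induction with
  | mem x hx =>
    obtain ⟨i, rfl⟩ := hx
    fin_cases i <;> exact sqk _ _
  | one => exact one_mul 1
  | mul x y hx hy ihx ihy =>
    rw [mul_assoc, ← mul_assoc y x y, ← hKc x hx y (hKS hy), mul_assoc x y y, ihy, mul_one, ihx]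
  | inv x hx ihx => rw [← _root_.mul_inv_rev, ihx, inv_one]

theorem pow_four_eq_one {Γ : Type v} [Group Γ] [Finite Γ] {σ : Γ →* P3} (hσ : Cfsg.IsStemExtension σ)
    (hF : Fintype.card F = 4) {z : Γ} (hz : z ∈ σ.ker) (hz8 : z ^ 8 = 1) : z ^ 4 = 1 := by
  let Ω : Subgroup Γ :=
    { carrier := {k | k ∈ σ.ker ∧ k * k = 1}
      one_mem' := ⟨one_mem _, one_mul 1⟩
      mul_mem' := fun {a b} ha hb => ⟨mul_mem ha.1 hb.1, by
        rw [mul_assoc, ← mul_assoc b a b, mem_center_iff.1 (hσ.2.1 ha.1) b, mul_assoc a b b, hb.2, mul_one,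
          ha.2]⟩
      inv_mem' := fun {a} ha => ⟨inv_mem ha.1, by rw [← _root_.mul_inv_rev, ha.2, inv_one]⟩ }
  haveI : Ω.Normal := ⟨fun n hn g => by
    rw [mem_center_iff.1 (hσ.2.1 hn.1) g, mul_inv_cancel_right]; exact hn⟩
  have hΩ : Ω ≤ σ.ker := fun k hk => hk.1
  let q := QuotientGroup.mk' Ω
  let π : Γ ⧸ Ω →* P3 := QuotientGroup.lift Ω σ hΩ
  have hqs := QuotientGroup.mk'_surjective Ω
  have hπq : ∀ x, π (q x) = σ x := fun x => rfl
  have hc : π.ker ≤ center (Γ ⧸ Ω) := fun w hw => by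
    obtain ⟨x, rfl⟩ := hqs w
    refine mem_center_iff.2 fun y => ?_
    obtain ⟨y, rfl⟩ := hqs y
    rw [← map_mul, ← map_mul, mem_center_iff.1 (hσ.2.1 (show x ∈ σ.ker from hw)) y]
  have hcomm : ∀ x y : Γ, σ x * σ x = 1 → σ x * σ y = σ y * σ x → q x * q y = q y * q x := by
    intro x y hx hxy
    rw [← commutatorElement_eq_one_iff_mul_comm, ← map_commutatorElement]
    refine (QuotientGroup.eq_one_iff _).2 ?_
    have hk : ⁅x, y⁆ ∈ σ.ker := by
      rw [MonoidHom.mem_ker, map_commutatorElement, commutatorElement_eq_one_iff_mul_comm]; exact hxy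
    refine ⟨hk, ?_⟩
    have h := comm_pow (hσ.2.1 hk) 2 1
    rw [pow_one, mul_one, pow_two, pow_two] at h
    rw [← h, commutatorElement_eq_one_iff_mul_comm]
    exact (mem_center_iff.1 (hσ.2.1 (by rw [MonoidHom.mem_ker, map_mul, hx])) y).symm
  have h2 : (2 : F) = 0 := Four.two0
  have row : ∀ x y : Γ ⧸ Ω, (∃ u : F × F, π x = m u.1 u.2 0) → (∃ u : F × F, π y = m u.1 u.2 0) →
      x * y = y * x := by
    intro x y hx hy
    obtain ⟨x, rfl⟩ := hqs x
    obtain ⟨y, rfl⟩ := hqs y
    obtain ⟨u, hu⟩ := hx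
    obtain ⟨v, hv⟩ := hy
    rw [hπq] at hu hv
    refine hcomm x y ?_ ?_
    · rw [hu, m_mul, m_eq_one]
      exact ⟨by linear_combination u.1 * h2, by linear_combination u.2 * h2, add_zero 0⟩
    · rw [hu, hv, m_mul, m_mul]; congr 1 <;> ring
  have col : ∀ x y : Γ ⧸ Ω, (∃ u : F × F, π x = m 0 u.1 u.2) → (∃ u : F × F, π y = m 0 u.1 u.2) →
      x * y = y * x := by
    intro x y hx hy
    obtain ⟨x, rfl⟩ := hqs x
    obtain ⟨y, rfl⟩ := hqs y
    obtain ⟨u, hu⟩ := hx
    obtain ⟨v, hv⟩ := hy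
    rw [hπq] at hu hv
    refine hcomm x y ?_ ?_
    · rw [hu, m_mul, m_eq_one]
      exact ⟨add_zero 0, by linear_combination u.1 * h2, by linear_combination u.2 * h2⟩
    · rw [hu, hv, m_mul, m_mul]; congr 1 <;> ring
  set H := (Ext.proj : Ext F →* P3).range.comap σ with hH
  have hzH : z ∈ H := by
    rw [hH, mem_comap, MonoidHom.mem_ker.1 hz]; exact one_mem _
  have hidx : H.index.Coprime (orderOf z) := by
    rw [hH, index_comap_of_surjective _ hσ.1, index_range_proj hF]
    exact Nat.Coprime.coprime_dvd_right (orderOf_dvd_of_pow_eq_one hz8) (by norm_num)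
  have h1 := mem_commutator_of_index H hzH (hσ.2.1 hz) (hσ.2.2 hz) hidx
  have h3 : q z * q z = 1 := by
    refine derived_sq π (fun g => ?_) hF hc row col ?_
    · obtain ⟨x, rfl⟩ := hσ.1 g; exact ⟨q x, hπq x⟩
    · have hle : H.map q ≤ (Ext.proj : Ext F →* P3).range.comap π := by
        rintro _ ⟨x, hx, rfl⟩; exact hx
      have h4 := mem_map_of_mem q h1
      rw [Subgroup.map_commutator] at h4
      exact Subgroup.commutator_mono hle hle h4
  rw [← map_mul] at h3
  have h5 : z * z * (z * z) = 1 := ((QuotientGroup.eq_one_iff _).1 h3).2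
  rw [show 4 = 2 + 2 from rfl, pow_add, pow_two]
  exact h5

theorem card_ker_le_bound {Γ : Type v} [Group Γ] [Finite Γ] {σ : Γ →* P3} (hσ : Cfsg.IsStemExtension σ)
    (hF : Fintype.card F = 4) : Nat.card σ.ker ≤ 48 := by
  classical
  letI cA : CommGroup σ.ker := { (inferInstance : Group σ.ker) with
    mul_comm := fun a b => Subtype.ext (mem_center_iff.1 (hσ.2.1 b.2) a) }
  haveI : Finite P3 := Finite.of_surjective σ hσ.1
  have h24 : ∀ k : σ.ker, k ^ 24 = 1 := by
    intro k
    have h1 := SchurMult.exponent_sq_dvd hσ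
    rw [card_P3 hF] at h1
    have h2 : Monoid.exponent σ.ker ∣ 24 := by
      generalize Monoid.exponent σ.ker = e at h1
      have hle : e * e ≤ 20160 := by
        rw [← pow_two]; exact Nat.le_of_dvd (by norm_num) h1
      have hlt : e ≤ 141 := by nlinarith
      revert h1
      interval_cases e <;> decide
    exact orderOf_dvd_iff_pow_eq_one.1 ((Monoid.order_dvd_exponent k).trans h2)
  have h12 : ∀ k : σ.ker, k ^ 12 = 1 := by
    intro k
    have h := pow_four_eq_one hσ hF (z := ((k ^ 3 : σ.ker) : Γ)) (k ^ 3).2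
      (by rw [← SubgroupClass.coe_pow, ← pow_mul]; exact congrArg Subtype.val (h24 k))
    rw [← SubgroupClass.coe_pow, ← pow_mul] at h
    exact Subtype.ext h
  -- the odd part
  haveI : Fact (Nat.Prime 3) := ⟨Nat.prime_three⟩
  obtain ⟨Q⟩ : Nonempty (Sylow 3 P3) := inferInstance
  have hQ : Nat.card (Q : Subgroup P3) = 3 ^ 2 := by
    rw [Q.card_eq_multiplicity, card_P3 hF]
    congr 1
    rw [show (20160 : ℕ) = 3 ^ 2 * 2240 by norm_num, Nat.factorization_mul (by norm_num) (by norm_num),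
      Nat.Prime.factorization_pow Nat.prime_three]
    simp [Nat.factorization_eq_zero_of_not_dvd (show ¬ 3 ∣ 2240 by norm_num)]
  obtain ⟨c, hc3, hcmem⟩ := exists_bound_sq hσ Q hQ
  let f4 : σ.ker →* σ.ker := powMonoidHom 4
  have hr : Nat.card f4.range ≤ 3 := by
    have h1 : f4.range.map σ.ker.subtype ≤ zpowers c := by
      rintro _ ⟨_, ⟨k, rfl⟩, rfl⟩
      refine hcmem _ (k ^ 4).2 ?_
      show ((k ^ 4 : σ.ker) : Γ) ^ 3 = 1
      rw [← SubgroupClass.coe_pow, ← pow_mul]
      exact congrArg Subtype.val (h12 k)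
    have h3 := (card_le_of_le h1)
    rw [Nat.card_congr (f4.range.equivMapOfInjective _ σ.ker.subtype_injective).toEquiv.symm,
      Nat.card_zpowers] at h3
    exact h3.trans (Nat.le_of_dvd (by norm_num) (orderOf_dvd_of_pow_eq_one hc3))
  -- elements of order at most two
  let f2 : σ.ker →* σ.ker := powMonoidHom 2
  have hk2 : Nat.card f2.ker ≤ 4 := by
    let L : Subgroup Γ := f2.range.map σ.ker.subtype
    haveI : L.Normal := ⟨fun n hn g => by
      have hnk : n ∈ σ.ker := by obtain ⟨x, -, rfl⟩ := hn; exact x.2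
      rw [mem_center_iff.1 (hσ.2.1 hnk) g, mul_inv_cancel_right]; exact hn⟩
    have hL : L ≤ σ.ker := map_subtype_le _
    let π : Γ ⧸ L →* P3 := QuotientGroup.lift L σ hL
    have hqs := QuotientGroup.mk'_surjective L
    have h := ker_card_le π (fun g => by obtain ⟨x, rfl⟩ := hσ.1 g; exact ⟨QuotientGroup.mk' L x, rfl⟩) hF
      (fun w hw => by
        obtain ⟨x, rfl⟩ := hqs w
        refine mem_center_iff.2 fun y => ?_
        obtain ⟨y, rfl⟩ := hqs y
        rw [← map_mul, ← map_mul, mem_center_iff.1 (hσ.2.1 (show x ∈ σ.ker from hw)) y])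
      (fun w hw => by
        obtain ⟨x, rfl⟩ := hqs w
        rw [← map_mul]
        refine (QuotientGroup.eq_one_iff _).2 ⟨⟨x, hw⟩ ^ 2, ⟨⟨x, hw⟩, rfl⟩, ?_⟩
        simp [pow_two])
      (fun w hw => by
        obtain ⟨x, rfl⟩ := hqs w
        have := mem_map_of_mem (QuotientGroup.mk' L) (hσ.2.2 (show x ∈ σ.ker from hw))
        rw [map_commutator_eq] at this
        exact Subgroup.commutator_mono le_top le_top this)
    let q' : σ.ker →* π.ker :=
      MonoidHom.mk' (fun k => ⟨QuotientGroup.mk' L k.1, k.2⟩) fun a b => Subtype.ext (map_mul _ a.1 b.1)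
    have hq' : Function.Surjective q' := fun w => by
      obtain ⟨x, hx⟩ := hqs w.1
      exact ⟨⟨x, by have := w.2; rw [← hx] at this; exact this⟩, Subtype.ext hx⟩
    have hker : q'.ker = f2.range := by
      ext k
      rw [MonoidHom.mem_ker, ← Subgroup.mem_map_iff_mem σ.ker.subtype_injective]
      exact ⟨fun hk => (QuotientGroup.eq_one_iff _).1 (congrArg Subtype.val hk),
        fun hk => Subtype.ext ((QuotientGroup.eq_one_iff _).2 hk)⟩
    have e1 := f2.ker.card_mul_index
    rw [index_ker] at e1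
    have e2 := q'.ker.card_mul_index
    rw [index_ker, MonoidHom.range_eq_top.2 hq', Subgroup.card_top, hker] at e2
    have hpos : 0 < Nat.card f2.range := Nat.card_pos
    have : Nat.card f2.ker = Nat.card π.ker :=
      Nat.eq_of_mul_eq_mul_right hpos (by rw [e1, mul_comm (Nat.card π.ker), e2])
    omega
  have hk4 : Nat.card f4.ker ≤ 16 := by
    let s : f4.ker →* f2.ker := MonoidHom.mk' (fun k => ⟨(k : σ.ker) ^ 2, by
      show ((k : σ.ker) ^ 2) ^ 2 = 1
      rw [← pow_mul]; exact k.2⟩) fun a b => Subtype.ext (mul_pow (a : σ.ker) b 2)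
    have h1 : Nat.card s.ker ≤ Nat.card f2.ker :=
      Nat.card_le_card_of_injective (fun k : s.ker => (⟨(k.1 : σ.ker), congrArg Subtype.val k.2⟩ : f2.ker))
        fun a b e => Subtype.ext (Subtype.ext (congrArg (fun x : f2.ker => (x : σ.ker)) e))
    have h2 : Nat.card s.range ≤ Nat.card f2.ker :=
      Nat.card_le_card_of_injective (Subtype.val : s.range → f2.ker) Subtype.val_injective
    have e := s.ker.card_mul_index
    rw [index_ker] at e
    calc Nat.card f4.ker = Nat.card s.ker * Nat.card s.range := e.symm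
      _ ≤ 4 * 4 := Nat.mul_le_mul (h1.trans hk2) (h2.trans hk2)
  have e := f4.ker.card_mul_index
  rw [index_ker] at e
  calc Nat.card σ.ker = Nat.card f4.ker * Nat.card f4.range := e.symm
    _ ≤ 16 * 3 := Nat.mul_le_mul hk4 hr

end Bound

end Cfsg.Agent.Lib.L34
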