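import Cfsg.Agent.Lib.L34.CoverBound

/-!
A central extension of the unitriangular group over four elements by the Witt vectors of length two over that
field. Its commutators on commuting pairs are unchanged by fusion in PSL(3,4).
-/

set_option autoImplicit false

namespace Cfsg.Agent.Lib.L34

open scoped commutatorElement

universe u

/-- Coordinates of the central extension. -/
@[ext]
structure Ext (F : Type u) [Field F] where
  /-- first root coordinate -/
  a : F
  /-- middle root coordinate -/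
  b : F
  /-- second root coordinate -/
  c : F
  /-- first Witt component -/
  u : F
  /-- second Witt component -/
  v : F

/-- The field has four elements. -/
class Four (F : Type u) [Field F] : Prop where
  pow4 : ∀ x : F, x ^ 4 = x
  two0 : (2 : F) = 0

variable {F : Type u} [Field F]

namespace Ext

instance [Finite F] : Finite (Ext F) :=
  Finite.of_injective (fun s => (s.a, s.b, s.c, s.u, s.v)) fun s t h => by
    simp only [Prod.mk.injEq] at h
    obtain ⟨h1, h2, h3, h4, h5⟩ := h
    exact Ext.ext h1 h2 h3 h4 h5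

instance : Mul (Ext F) :=
  ⟨fun s t => ⟨s.a + t.a, s.b + t.b + t.a * s.c, s.c + t.c, s.u + t.u + t.a * s.c ^ 2,
    s.v + t.v + t.a * s.b + t.b ^ 2 * s.c ^ 2 + s.u * t.u + (s.u + t.u) * (t.a * s.c ^ 2)⟩⟩

instance : One (Ext F) := ⟨⟨0, 0, 0, 0, 0⟩⟩

instance : Inv (Ext F) :=
  ⟨fun s => ⟨s.a, s.b + s.a * s.c, s.c, s.u + s.a * s.c ^ 2,
    s.v + s.a * (s.b + s.a * s.c) + s.b ^ 2 * s.c ^ 2 + (s.u + s.a * s.c ^ 2) * s.u +
      (s.a * s.c ^ 2) ^ 2⟩⟩

theorem mul_def (s t : Ext F) : s * t = ⟨s.a + t.a, s.b + t.b + t.a * s.c, s.c + t.c,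
    s.u + t.u + t.a * s.c ^ 2,
    s.v + t.v + t.a * s.b + t.b ^ 2 * s.c ^ 2 + s.u * t.u + (s.u + t.u) * (t.a * s.c ^ 2)⟩ := rfl

theorem one_def : (1 : Ext F) = ⟨0, 0, 0, 0, 0⟩ := rfl

theorem inv_def (s : Ext F) : s⁻¹ = ⟨s.a, s.b + s.a * s.c, s.c, s.u + s.a * s.c ^ 2,
    s.v + s.a * (s.b + s.a * s.c) + s.b ^ 2 * s.c ^ 2 + (s.u + s.a * s.c ^ 2) * s.u +
      (s.a * s.c ^ 2) ^ 2⟩ := rfl

variable [Four F]

instance : Group (Ext F) :=
  Group.ofLeftAxioms
    (fun s t r => by
      have h2 : (2 : F) = 0 := Four.two0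
      have h4 := Four.pow4 (F := F)
      ext <;> simp only [mul_def] <;> ring_nf <;> simp [h2, h4] <;> ring_nf <;> simp [h2])
    (fun s => by ext <;> simp [mul_def, one_def])
    (fun s => by
      have h2 : (2 : F) = 0 := Four.two0
      have h4 := Four.pow4 (F := F)
      have h44 : (4 : F) = 0 := by linear_combination 2 * h2
      ext <;> simp only [mul_def, inv_def, one_def] <;> ring_nf <;> (try simp [h2, h4, h44]) <;>
        (try ring_nf) <;> (try simp [h2, h44]))

/-- A central element. -/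
def ker (x y : F) : Ext F := ⟨0, 0, 0, x, y⟩

/-- Witt coordinates of the commutator of a commuting pair with given root coordinates. -/
def comU (a c a' c' : F) : F := a' * c ^ 2 + a * c' ^ 2

/-- The second component. -/
def comV (a b c a' b' c' : F) : F :=
  a' * b + a * b' + b' ^ 2 * c ^ 2 + b ^ 2 * c' ^ 2 + comU a c a' c' * (a * c' ^ 2)

theorem mul_eq_ker_mul (s t : Ext F) (h : t.a * s.c = s.a * t.c) :
    s * t = ker (comU s.a s.c t.a t.c) (comV s.a s.b s.c t.a t.b t.c) * (t * s) := by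
  have h2 : (2 : F) = 0 := Four.two0
  ext <;> simp only [mul_def, ker, comU, comV]
  · ring
  · linear_combination h
  · ring
  · linear_combination (-(s.a * t.c ^ 2)) * h2
  · linear_combination (-(s.a * t.b) - s.b ^ 2 * t.c ^ 2 - (t.a * s.c ^ 2 + s.a * t.c ^ 2) *
      (s.a * t.c ^ 2) - (t.u + s.u) * (s.a * t.c ^ 2)) * h2

theorem commutator_eq (s t : Ext F) (h : t.a * s.c = s.a * t.c) :
    ⁅s, t⁆ = ker (comU s.a s.c t.a t.c) (comV s.a s.b s.c t.a t.b t.c) := by
  rw [commutatorElement_def, mul_eq_ker_mul s t h]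
  group

end Ext

end Cfsg.Agent.Lib.L34
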