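import Cfsg.Agent.Lib.L34.SylowExt

/-!
The projection of the Witt extension onto the unitriangular image in PSL(3,4) and the stability of its
commutators under fusion.
-/

set_option autoImplicit false

namespace Cfsg.Agent.Lib.L34

open Matrix Subgroup
open scoped commutatorElement

universe u

variable {F : Type u} [Field F] [Four F]

local notation "SL3" => SpecialLinearGroup (Fin 3) F
local notation "P3" => ProjectiveSpecialLinearGroup (Fin 3) F

theorem m_inj3 {a b c a' b' c' : F} (h : (m a b c : P3) = m a' b' c') : a = a' ∧ b = b' ∧ c = c' := by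
  have h2 : (2 : F) = 0 := Four.two0
  have e : (m a b c : P3) * m a' (b' + a' * c') c' = 1 := by
    rw [h, m_mul, m_eq_one]
    exact ⟨by linear_combination a' * h2, by linear_combination (b' + a' * c') * h2,
      by linear_combination c' * h2⟩
  rw [m_mul, m_eq_one] at e
  obtain ⟨e1, e2, e3⟩ := e
  have ha : a = a' := by linear_combination e1 - a' * h2
  have hc : c = c' := by linear_combination e3 - c' * h2
  subst ha hc
  exact ⟨rfl, by linear_combination e2 - (b' + a * c) * h2, rfl⟩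

/-- The projection to PSL(3,4). -/
def Ext.proj : Ext F →* P3 where
  toFun s := m s.a (s.b + s.a * s.c) s.c
  map_one' := m_eq_one.2 ⟨rfl, by simp [Ext.one_def], rfl⟩
  map_mul' s t := by
    rw [m_mul]
    congr 1
    simp only [Ext.mul_def]
    linear_combination (t.a * s.c) * (Four.two0 : (2 : F) = 0)

theorem proj_apply (s : Ext F) : Ext.proj s = m s.a (s.b + s.a * s.c) s.c := rfl

theorem proj_eq_one {s : Ext F} (h : Ext.proj s = 1) : s = Ext.ker s.u s.v := by
  rw [proj_apply, m_eq_one] at h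
  obtain ⟨ha, hb, hc⟩ := h
  have hb' : s.b = 0 := by simpa [ha] using hb
  ext <;> simp [Ext.ker, ha, hb', hc]

theorem proj_ker (x y : F) : Ext.proj (Ext.ker x y : Ext F) = 1 :=
  m_eq_one.2 ⟨rfl, by simp [Ext.ker], rfl⟩

theorem ker_proj_le_center : (Ext.proj : Ext F →* P3).ker ≤ center (Ext F) := by
  intro s hs
  rw [proj_eq_one hs]
  refine mem_center_iff.2 fun t => ?_
  ext <;> simp [Ext.mul_def, Ext.ker] <;> ring

theorem comm_pow {E : Type*} [Group E] {X Y : E} (hc : ⁅X, Y⁆ ∈ center E) :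
    ∀ m n : ℕ, ⁅X ^ m, Y ^ n⁆ = ⁅X, Y⁆ ^ (m * n) := by
  have h1 : ∀ n : ℕ, ⁅X, Y ^ n⁆ = ⁅X, Y⁆ ^ n := by
    intro n
    induction n with
    | zero => simp
    | succ n ih =>
      rw [pow_succ', show ⁅X, Y * Y ^ n⁆ = ⁅X, Y⁆ * (Y * ⁅X, Y ^ n⁆ * Y⁻¹) by
        simp only [commutatorElement_def]; group, ih, mem_center_iff.1 (pow_mem hc n) Y,
        mul_inv_cancel_right, pow_succ']
  intro m n
  induction m with
  | zero => simp
  | succ m ih =>
    rw [pow_succ', show ⁅X * X ^ m, Y ^ n⁆ = (X * ⁅X ^ m, Y ^ n⁆ * X⁻¹) * ⁅X, Y ^ n⁆ by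
      simp only [commutatorElement_def]; group, ih, mem_center_iff.1 (pow_mem hc _) X,
      mul_inv_cancel_right, h1, ← pow_add]
    congr 1
    ring

variable (F) in
/-- The preimage of one of the homocyclic subgroups of order sixteen. -/
def Kl (l : F) : Subgroup (Ext F) where
  carrier := {s | s.c = l * s.a}
  one_mem' := by simp [Ext.one_def]
  mul_mem' {s t} hs ht := by
    simp only [Set.mem_setOf_eq, Ext.mul_def] at *
    rw [hs, ht]; ring
  inv_mem' {s} hs := by
    simp only [Set.mem_setOf_eq, Ext.inv_def] at *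
    exact hs

theorem mat_of_conj {G : SL3} {s P : Ext F}
    (h : Ext.proj s = (QuotientGroup.mk' _ G : P3)⁻¹ * Ext.proj P * QuotientGroup.mk' _ G) :
    G.1 * (M s.a (s.b + s.a * s.c) s.c : SL3).1 = (M P.a (P.b + P.a * P.c) P.c : SL3).1 * G.1 := by
  set X := (M s.a (s.b + s.a * s.c) s.c : SL3) with hX
  set Y := (M P.a (P.b + P.a * P.c) P.c : SL3) with hY
  have h1 : QuotientGroup.mk' (center SL3) (G * X) = QuotientGroup.mk' (center SL3) (Y * G) := by
    rw [map_mul, map_mul, show QuotientGroup.mk' (center SL3) X = Ext.proj s from rfl, h,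
      show QuotientGroup.mk' (center SL3) Y = Ext.proj P from rfl]
    group
  obtain ⟨z, hz, e⟩ := (QuotientGroup.mk'_eq_mk' _).1 h1
  obtain ⟨r, -, hr⟩ := Matrix.SpecialLinearGroup.mem_center_iff.1 hz
  have e' : G.1 * X.1 * Matrix.scalar (Fin 3) r = Y.1 * G.1 := by
    rw [hr]
    exact congrArg Subtype.val e
  have e2 : (r • (G.1 * X.1)) = Y.1 * G.1 := by
    rw [← e', Matrix.scalar_apply, ← Matrix.smul_one_eq_diagonal, Matrix.mul_smul, mul_one]
  have hinv : (G⁻¹ : SL3).1 * G.1 = 1 := by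
    rw [← Matrix.SpecialLinearGroup.coe_mul, inv_mul_cancel]; rfl
  have hinv' : G.1 * (G⁻¹ : SL3).1 = 1 := by
    rw [← Matrix.SpecialLinearGroup.coe_mul, mul_inv_cancel]; rfl
  have e3 : Y.1 = r • (G.1 * X.1 * (G⁻¹ : SL3).1) := by
    rw [← Matrix.smul_mul, e2, Matrix.mul_assoc, hinv', mul_one]
  have e4 : Matrix.trace Y.1 = r * Matrix.trace X.1 := by
    rw [e3, Matrix.trace_smul, Matrix.trace_mul_cycle, hinv, one_mul, smul_eq_mul]
  have h2 : (2 : F) = 0 := Four.two0
  have e5 : r = 1 := by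
    simp [hX, hY, M, Matrix.trace, Fin.sum_univ_three] at e4
    linear_combination -e4 + (1 - r) * h2
  rw [e5, one_smul] at e2
  exact e2

/-- The entries of the conjugation equation. -/
theorem entries {G : Matrix (Fin 3) (Fin 3) F} {A B C a b c : F}
    (h : G * (M A B C : SL3).1 = (M a b c : SL3).1 * G) :
    G 2 0 * A = 0 ∧ G 2 0 * B + G 2 1 * C = 0 ∧ G 1 0 * A = c * G 2 1 ∧
    G 0 0 * A = a * G 1 1 + b * G 2 1 ∧ G 1 0 * B + G 1 1 * C = c * G 2 2 ∧
    G 0 0 * B + G 0 1 * C = a * G 1 2 + b * G 2 2 := by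
  have q : ∀ i j, (G * (M A B C : SL3).1) i j = ((M a b c : SL3).1 * G) i j := fun i j => by rw [h]
  have q21 := q 2 1
  have q22 := q 2 2
  have q11 := q 1 1
  have q01 := q 0 1
  have q12 := q 1 2
  have q02 := q 0 2
  simp [M, Matrix.mul_apply, Fin.sum_univ_three] at q21 q22 q11 q01 q12 q02
  refine ⟨?_, ?_, ?_, ?_, ?_, ?_⟩
  · first | linear_combination q21 | exact mul_eq_zero.2 q21
  · linear_combination q22
  · linear_combination q11
  · linear_combination q01
  · linear_combination q12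
  · linear_combination q02

theorem pow3 {t : F} (ht : t ≠ 0) : t ^ 3 = 1 :=
  mul_left_cancel₀ ht (by rw [mul_one]; linear_combination Four.pow4 t)

theorem proj_sq (s : Ext F) : Ext.proj (s * s) = m 0 (s.a * s.c) 0 := by
  have h2 : (2 : F) = 0 := Four.two0
  rw [map_mul, proj_apply, m_mul]
  congr 1
  · linear_combination s.a * h2
  · linear_combination (s.b + s.a * s.c) * h2
  · linear_combination s.c * h2

/-- An element of order four of a homocyclic subgroup forces the conjugating matrix to be triangular. -/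
theorem triangular {l : F} (hl : l ≠ 0) {G : SL3} {s P : Ext F} (hP : P ∈ Kl F l) (ha : P.a ≠ 0)
    (h : Ext.proj s = (QuotientGroup.mk' _ G : P3)⁻¹ * Ext.proj P * QuotientGroup.mk' _ G) :
    ∃ t k : F, t ^ 3 = 1 ∧ ∀ (v Q : Ext F), Q ∈ Kl F l →
      Ext.proj v = (QuotientGroup.mk' _ G : P3)⁻¹ * Ext.proj Q * QuotientGroup.mk' _ G →
      v.a = t * Q.a ∧ v.b = t ^ 2 * Q.b + k * Q.a ∧ v.c = l * v.a := by
  have h2 : (2 : F) = 0 := Four.two0
  have hPc : P.c = l * P.a := hP
  have hs2 : Ext.proj (s * s) ≠ 1 := by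
    intro e
    rw [map_mul, h] at e
    have e' : (QuotientGroup.mk' (center SL3) G)⁻¹ * Ext.proj (P * P) * QuotientGroup.mk' (center SL3) G = 1 := by
      rw [← e, map_mul]; group
    rw [show ∀ x y : P3, x⁻¹ * y * x = 1 ↔ y = 1 from fun x y => by
      constructor
      · intro hh; have := congrArg (fun z => x * z * x⁻¹) hh; simpa [mul_assoc] using this
      · rintro rfl; simp, proj_sq, m_eq_one, hPc] at e'
    exact mul_ne_zero ha (mul_ne_zero hl ha) e'.2.1
  rw [proj_sq, ne_eq, m_eq_one] at hs2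
  simp only [true_and, and_true, mul_eq_zero, not_or] at hs2
  obtain ⟨hA, hC⟩ := hs2
  obtain ⟨q1, q2, q3, -, -, -⟩ := entries (mat_of_conj h)
  have g20 : G.1 2 0 = 0 := by simpa [hA] using q1
  have g21 : G.1 2 1 = 0 := by simpa [g20, hC] using q2
  have g10 : G.1 1 0 = 0 := by simpa [g21, hA] using q3
  have hdet : G.1 0 0 * G.1 1 1 * G.1 2 2 = 1 := by
    have := G.2
    rw [Matrix.det_fin_three] at this
    linear_combination this + (G.1 0 0 * G.1 1 2 - G.1 0 2 * G.1 1 0) * g21 +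
      (G.1 0 1 * G.1 2 2) * g10 - (G.1 0 1 * G.1 1 2 - G.1 0 2 * G.1 1 1) * g20
  have n0 : G.1 0 0 ≠ 0 := fun e => by simp [e] at hdet
  have n1 : G.1 1 1 ≠ 0 := fun e => by simp [e] at hdet
  have h11 := pow3 n1
  have e02 : G.1 0 0 * G.1 2 2 = G.1 1 1 ^ 2 :=
    mul_left_cancel₀ n1 (by linear_combination hdet - h11)
  refine ⟨G.1 1 1 / G.1 0 0, (G.1 1 2 - G.1 0 1 * (l * (G.1 1 1 / G.1 0 0))) / G.1 0 0,
    pow3 (div_ne_zero n1 n0), fun v Q hQ hv => ?_⟩
  have hQc : Q.c = l * Q.a := hQ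
  obtain ⟨-, -, -, r1, r2, r3⟩ := entries (mat_of_conj hv)
  rw [g21, mul_zero, add_zero] at r1
  rw [g10, zero_mul, zero_add, hQc] at r2
  have va : v.a = G.1 1 1 / G.1 0 0 * Q.a := by
    field_simp
    linear_combination r1
  have vc : v.c = l * v.a := by
    refine mul_left_cancel₀ (mul_ne_zero n1 n0) ?_
    linear_combination G.1 0 0 * r2 - l * G.1 1 1 * r1 + l * Q.a * e02
  refine ⟨va, ?_, vc⟩
  have vb : G.1 0 0 * (v.b + v.a * v.c) =
      Q.a * G.1 1 2 + (Q.b + Q.a * Q.c) * G.1 2 2 - G.1 0 1 * v.c := by linear_combination r3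
  rw [vc, va, hQc] at vb
  field_simp at vb ⊢
  linear_combination vb + (Q.b + l * Q.a ^ 2) * e02

theorem com_invariant {l t k a b a' b' : F} (ht : t ^ 3 = 1) :
    Ext.comU (t * a) (l * (t * a)) (t * a') (l * (t * a')) = Ext.comU a (l * a) a' (l * a') ∧
    Ext.comV (t * a) (t ^ 2 * b + k * a) (l * (t * a)) (t * a') (t ^ 2 * b' + k * a') (l * (t * a')) =
      Ext.comV a b (l * a) a' b' (l * a') := by
  have h2 : (2 : F) = 0 := Four.two0
  refine ⟨?_, ?_⟩ <;> simp only [Ext.comU, Ext.comV]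
  · linear_combination (a' * (l * a) ^ 2 + a * (l * a') ^ 2) * ht
  · linear_combination (a' * b + a * b' + (t ^ 3 + 1) * (b' ^ 2 * (l * a) ^ 2 + b ^ 2 * (l * a') ^ 2 +
      (a' * (l * a) ^ 2 + a * (l * a') ^ 2) * (a * (l * a') ^ 2))) * ht +
      (k * t * a * a' + l ^ 2 * t ^ 4 * k * (b' * a' * a ^ 2 + b * a * a' ^ 2) +
        l ^ 2 * t ^ 2 * k ^ 2 * a ^ 2 * a' ^ 2) * h2

theorem fusion_stable {l : F} (hl : l ≠ 0) (g : P3) {P Q u v : Ext F} (hP : P ∈ Kl F l) (hQ : Q ∈ Kl F l)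
    (hu : Ext.proj u = g⁻¹ * Ext.proj P * g) (hv : Ext.proj v = g⁻¹ * Ext.proj Q * g) :
    ⁅u, v⁆ = ⁅P, Q⁆ := by
  have h2 : (2 : F) = 0 := Four.two0
  obtain ⟨G, rfl⟩ := QuotientGroup.mk'_surjective _ g
  have hPc : P.c = l * P.a := hP
  have hQc : Q.c = l * Q.a := hQ
  by_cases hne : P.a ≠ 0 ∨ Q.a ≠ 0
  · obtain ⟨t, k, ht, H⟩ : ∃ t k : F, t ^ 3 = 1 ∧ ∀ (v Q : Ext F), Q ∈ Kl F l →
        Ext.proj v = (QuotientGroup.mk' _ G : P3)⁻¹ * Ext.proj Q * QuotientGroup.mk' _ G →
        v.a = t * Q.a ∧ v.b = t ^ 2 * Q.b + k * Q.a ∧ v.c = l * v.a := by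
      rcases hne with ha | ha
      · exact triangular hl hP ha hu
      · exact triangular hl hQ ha hv
    obtain ⟨ua, ub, uc⟩ := H u P hP hu
    obtain ⟨va, vb, vc⟩ := H v Q hQ hv
    rw [Ext.commutator_eq u v (by rw [uc, vc]; ring), Ext.commutator_eq P Q (by rw [hPc, hQc]; ring),
      uc, vc, ub, vb, ua, va, hPc, hQc, (com_invariant (l := l) (k := k) (a := P.a) (b := P.b) (a' := Q.a) (b' := Q.b) ht).1, (com_invariant (l := l) (k := k) (a := P.a) (b := P.b) (a' := Q.a) (b' := Q.b) ht).2]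
  push_neg at hne
  obtain ⟨ha, ha'⟩ := hne
  have hPQ : ⁅P, Q⁆ = 1 := by
    rw [Ext.commutator_eq P Q (by rw [ha, ha']; ring), hPc, hQc, ha, ha']
    simp [Ext.comU, Ext.comV, Ext.ker, Ext.one_def]
  rw [hPQ, commutatorElement_eq_one_iff_commute]
  by_cases hb : P.b = 0
  · exact (mem_center_iff.1 (ker_proj_le_center (show Ext.proj u = 1 by
      rw [hu, proj_apply, ha, hPc, ha, hb, m_eq_one.2 ⟨rfl, by simp, by simp⟩]; simp)) v).symm
  by_cases hb' : Q.b = 0
  · exact mem_center_iff.1 (ker_proj_le_center (show Ext.proj v = 1 by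
      rw [hv, proj_apply, ha', hQc, ha', hb', m_eq_one.2 ⟨rfl, by simp, by simp⟩]; simp)) u
  have hAC : u.a * u.c = 0 := by
    have e : Ext.proj (u * u) = 1 := by
      rw [map_mul, hu]
      have e' : Ext.proj (P * P) = 1 := by
        rw [proj_sq, ha, zero_mul]; exact m_eq_one.2 ⟨rfl, rfl, rfl⟩
      rw [map_mul] at e'
      calc _ = (QuotientGroup.mk' (center SL3) G)⁻¹ * (Ext.proj P * Ext.proj P) *
            QuotientGroup.mk' (center SL3) G := by group
        _ = 1 := by rw [e']; group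
    rw [proj_sq, m_eq_one] at e
    exact e.2.1
  have eu := mat_of_conj hu
  have ev := mat_of_conj hv
  rw [ha, hPc, ha, mul_zero, mul_zero, add_zero] at eu
  rw [ha', hQc, ha', mul_zero, mul_zero, add_zero] at ev
  set X : Matrix (Fin 3) (Fin 3) F := Q.b • ((M u.a (u.b + u.a * u.c) u.c : SL3).1 - 1) -
    P.b • ((M v.a (v.b + v.a * v.c) v.c : SL3).1 - 1) with hX
  have hGX : G.1 * X = 0 := by
    have hM : Q.b • ((M 0 P.b 0 : SL3).1 - 1) = P.b • ((M 0 Q.b 0 : SL3).1 - 1) := by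
      ext i j
      fin_cases i <;> fin_cases j <;> simp [M, mul_comm]
    rw [hX, Matrix.mul_sub, Matrix.mul_smul, Matrix.mul_smul, Matrix.mul_sub, Matrix.mul_sub, eu, ev,
      mul_one, show ∀ Y : Matrix (Fin 3) (Fin 3) F, Y * G.1 - G.1 = (Y - 1) * G.1 from fun Y => by
        rw [Matrix.sub_mul, one_mul],
      show ∀ Y : Matrix (Fin 3) (Fin 3) F, Y * G.1 - G.1 = (Y - 1) * G.1 from fun Y => by
        rw [Matrix.sub_mul, one_mul],
      ← Matrix.smul_mul, ← Matrix.smul_mul, hM, sub_self]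
  have hX0 : X = 0 := by
    have : (G⁻¹ : SL3).1 * (G.1 * X) = X := by
      rw [← Matrix.mul_assoc, ← Matrix.SpecialLinearGroup.coe_mul, inv_mul_cancel]
      exact one_mul X
    rw [← this, hGX, mul_zero]
  have x01 : X 0 1 = 0 := by rw [hX0]; rfl
  have x02 : X 0 2 = 0 := by rw [hX0]; rfl
  have x12 : X 1 2 = 0 := by rw [hX0]; rfl
  simp [hX, M] at x01 x02 x12
  have va : v.a = Q.b / P.b * u.a := by field_simp; linear_combination -x01
  have vc : v.c = Q.b / P.b * u.c := by field_simp; linear_combination -x12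
  have vb : v.b = Q.b / P.b * u.b := by
    rw [hAC, add_zero, show v.a * v.c = 0 by rw [va, vc]; linear_combination (Q.b / P.b) ^ 2 * hAC,
      add_zero] at x02
    field_simp
    linear_combination -x02
  rw [← commutatorElement_eq_one_iff_commute, Ext.commutator_eq u v (by rw [va, vc]; ring), va, vb, vc]
  set q := Q.b / P.b
  have hU : Ext.comU u.a u.c (q * u.a) (q * u.c) = 0 := by
    simp only [Ext.comU]
    linear_combination (q * u.c + q ^ 2 * u.c) * hAC
  have hV : Ext.comV u.a u.b u.c (q * u.a) (q * u.b) (q * u.c) = 0 := by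
    simp only [Ext.comV, hU]
    linear_combination (q * u.a * u.b + q ^ 2 * u.b ^ 2 * u.c ^ 2) * h2
  rw [hU, hV]
  rfl

end Cfsg.Agent.Lib.L34
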